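import Mathlib
import Cfsg.Agent.GHE.Base
import Cfsg.Agent.MacW.SR
import Cfsg.Agent.Grp.ExtraspecialIso

/-! Extensions of a 2-group by `A₅` in sectional rank four. -/

set_option autoImplicit false
set_option linter.unusedSectionVars false
set_option linter.style.haveILetI false

namespace Cfsg.Agent.GHE
open Cfsg Subgroup Cfsg.Agent.PLocal.Amb Grp.ES
open scoped commutatorElement

universe u

variable {G : Type*} [Group G]

theorem mem_fixMod_top {W : Subgroup G} [W.Normal] {g r : G} :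
    g ∈ fixMod ⊤ W r ↔ g * r * g⁻¹ * r⁻¹ ∈ W := by
  rw [mem_fixMod, ← inv_mem_iff (x := r * g * r⁻¹ * g⁻¹)]
  simp [mul_assoc]

theorem relIndex_mul_card [Finite G] {A B : Subgroup G} (h : A ≤ B) :
    A.relIndex B * Nat.card A = Nat.card B := by
  have := card_mul_index (A.subgroupOf B)
  rwa [Nat.card_congr (subgroupOfEquivOfLe h).toEquiv, mul_comm] at this

/-- An involution inverting a fixed point free element of order five acts freely. -/
theorem free5 [Finite G] {R W : Subgroup G} [hR : R.Normal] [hW : W.Normal]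
    (cR : Nat.card R = 16 * Nat.card W) {e t : G} (he : e ^ 5 = 1) (ht : t * e * t⁻¹ = e ^ 4)
    (fR : ∀ r ∈ R, e * r * e⁻¹ * r⁻¹ ∈ W → r ∈ W) (h : W ≤ R) :
    Nat.card (fixMod R W t) ≤ 4 * Nat.card W := by
  have h1 : fixMod R W (e * t * e⁻¹) = cj(e, fixMod R W t) := by
    ext r
    rw [mem_cj, mem_fixMod, mem_fixMod]
    refine and_congr ⟨fun hr => by simpa using hR.conj_mem r hr e⁻¹,
      fun hr => by simpa [mul_assoc] using hR.conj_mem _ hr e⟩ ⟨fun hr => ?_, fun hr => ?_⟩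
    · convert hW.conj_mem _ hr e⁻¹ using 1; group
    · convert hW.conj_mem _ hr e using 1; group
  have h2 : fixMod R W t ⊓ fixMod R W (e * t * e⁻¹) ≤ W := fun r ⟨h3, h4⟩ => by
    have h5 := mul_mem (mem_fixMod_top.2 (mem_fixMod.1 h4).2)
      (inv_mem (mem_fixMod_top.2 (mem_fixMod.1 h3).2))
    have h6 : e * t * e⁻¹ * t⁻¹ = e * e := by
      rw [show e * t * e⁻¹ * t⁻¹ = e * (t * e * t⁻¹)⁻¹ by group, ht]
      calc e * (e ^ 4)⁻¹ = e * e * (e ^ 5)⁻¹ := by group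
        _ = _ := by rw [he]; group
    have h7 : (e * e) ^ 3 = e := by
      calc (e * e) ^ 3 = e ^ 5 * e := by rw [← sq, ← pow_mul, ← pow_succ]
        _ = _ := by rw [he, one_mul]
    rw [h6] at h5
    exact fR r h3.1 (mem_fixMod_top.1 (h7 ▸ pow_mem h5 3))
  have h3 := relIndex_inf_le (H := fixMod R W t) (K := fixMod R W (e * t * e⁻¹)) (L := R)
  have h4 := relIndex_le_of_le_left (L := R) h2 index_ne_zero_of_finite
  have h5 := relIndex_mul_card h
  have h6 := relIndex_mul_card (A := fixMod R W t) (B := R) inf_le_left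
  have h7 := relIndex_mul_card (A := fixMod R W (e * t * e⁻¹)) (B := R) inf_le_left
  have h8 : 0 < Nat.card W := Nat.card_pos
  have h9 : 0 < Nat.card (fixMod R W t) := Nat.card_pos
  have h10 : Nat.card (fixMod R W (e * t * e⁻¹)) = Nat.card (fixMod R W t) := by rw [h1, card_cj]
  rw [h10, ← h6] at h7
  have h11 := Nat.eq_of_mul_eq_mul_right h9 h7
  rw [cR] at h5
  have h12 := Nat.eq_of_mul_eq_mul_right h8 h5
  rw [h11] at h3
  have h13 : 4 ≤ (fixMod R W t).relIndex R := by nlinarith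
  nlinarith

/-- Class two data: `W` is central elementary and contains the squares of `R`. -/
structure C2 (R W : Subgroup G) : Prop where
  le : W ≤ R
  sq : ∀ x ∈ R, x * x ∈ W
  two : ∀ w ∈ W, w * w = 1
  cen : ∀ w ∈ W, ∀ r ∈ R, r * w = w * r

theorem card_range_mul {A : Type*} [AddCommGroup A] [Finite A] (f : A →+ A) :
    Nat.card f.range * Nat.card f.ker = Nat.card A := by
  rw [← AddSubgroup.index_ker, mul_comm, AddSubgroup.card_mul_index]

theorem two_big [Finite G] (hr : SectionalPRankLE 2 4 G) {R W : Subgroup G} [hR : R.Normal]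
    [hW : W.Normal] (h : C2 R W) {e t : G} (he : e ^ 5 = 1) (ht : t * e * t⁻¹ = e ^ 4)
    (htt : t * t ∈ R) (htR : t ∉ R) (cR : Nat.card R = 16 * Nat.card W)
    (fR : ∀ r ∈ R, e * r * e⁻¹ * r⁻¹ ∈ W → r ∈ W) (cW : Nat.card W = 16)
    (fW : ∀ r ∈ W, e * r * e⁻¹ * r⁻¹ ∈ (⊥ : Subgroup G) → r ∈ (⊥ : Subgroup G)) : False := by
  have t2 : t * t = 1 := by
    have h1 : e * (t * t) * e⁻¹ * (t * t)⁻¹ = 1 := by
      have h0 : t * t * e * (t * t)⁻¹ = e := by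
        rw [show t * t * e * (t * t)⁻¹ = t * (t * e * t⁻¹) * t⁻¹ by simp [mul_assoc], ht,
          ← conj_pow, ht, ← pow_mul, show 4 * 4 = 5 * 3 + 1 by norm_num, pow_succ, pow_mul, he]
        simp
      rw [show e * (t * t) * e⁻¹ * (t * t)⁻¹ = e * (t * t * e * (t * t)⁻¹)⁻¹ by simp [mul_assoc], h0]
      simp
    exact mem_bot.1 (fW _ (fR _ htt (h1 ▸ one_mem _)) (h1 ▸ one_mem _))
  have ti : t⁻¹ = t := inv_eq_of_mul_eq_one_right t2
  have b1 := free5 cR he ht fR h.le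
  have b2 := free5 (R := W) (W := ⊥) (by rw [cW, card_bot]) he ht fW bot_le
  obtain ⟨c, ρ, co⟩ := exists_co (n := 4) h.le h.sq cR
  let f : (Fin 4 → ZMod 2) →+ (Fin 4 → ZMod 2) := AddMonoidHom.id _ + (ρ t).mulVecLin.toAddMonoidHom
  have hf : ∀ v, f v = v + (ρ t).mulVec v := fun v => rfl
  have neg2 : ∀ v : Fin 4 → ZMod 2, -v = v := fun v => funext fun i => CharTwo.neg_eq _
  have k1 : co.pre f.ker = fixMod R W t := by
    ext r
    rw [co.mem_pre, mem_fixMod]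
    refine and_congr_right fun hr => ?_
    rw [← co.eq_iff (hR.conj_mem r hr t) hr, co.conj t r hr, AddMonoidHom.mem_ker, hf,
      add_eq_zero_iff_neg_eq, neg2, eq_comm]
  have k2 := co.card_pre h.le f.ker
  have k3 := co.card_pre h.le f.range
  have k4 := card_range_mul f
  rw [k1] at k2
  rw [show Nat.card (Fin 4 → ZMod 2) = 16 by simp] at k4
  set B := co.pre f.range
  have key : ∀ x ∈ B, ∃ w ∈ W, ∃ u ∈ R, x = w * u ∧ t * u * t⁻¹ = u⁻¹ := by
    rintro x ⟨hx, v, hv⟩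
    obtain ⟨r, hr, rfl⟩ := co.surj v
    have hu := mul_mem hr (hR.conj_mem _ (inv_mem hr) t)
    refine ⟨x * (r * (t * r⁻¹ * t⁻¹))⁻¹, (co.eq_iff hx hu).1 ?_, _, hu, by group, ?_⟩
    · rw [← hv, co.mul _ hr _ (hR.conj_mem _ (inv_mem hr) t), co.conj _ _ (inv_mem hr), co.inv hr,
        neg2, hf]
    · calc t * (r * (t * r⁻¹ * t⁻¹)) * t⁻¹ = t * r * (t * t) * t⁻¹ * r⁻¹ * (t * t)⁻¹ := by group
        _ = _ := by rw [t2]; group
  have hn : t ∈ 𝐍[B] := mem_normalizer_of_cj_le (cj_le_iff_forall.2 fun x hx => by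
    obtain ⟨hx, v, hv⟩ := hx
    refine ⟨hR.conj_mem x hx t, (ρ t).mulVec v, ?_⟩
    rw [co.conj t x hx, ← hv, hf, hf, Matrix.mulVec_add])
  have hb := bound hr (N := fixMod W ⊥ t) (H := MacW.adj B t hn (by rw [sq, t2]; exact one_mem _))
    (fun w hw => MacW.le_adj ⟨h.le hw.1, by rw [co.one h.le hw.1]; exact zero_mem _⟩) (by
      rintro y (hy | hy)
      · obtain ⟨w, hw, u, hu, rfl, h1⟩ := key y hy
        have h2 : w * u * (w * u) = u * u := by
          calc w * u * (w * u) = w * (u * w) * u := by group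
            _ = (w * w) * (u * u) := by rw [h.cen w hw u hu]; group
            _ = _ := by rw [h.two w hw, one_mul]
        rw [h2, mem_fixMod, mem_bot]
        refine ⟨h.sq u hu, ?_⟩
        calc t * (u * u) * t⁻¹ * (u * u)⁻¹ = (t * u * t⁻¹) * (t * u * t⁻¹) * (u * u)⁻¹ := by group
          _ = (u * u * (u * u))⁻¹ := by rw [h1]; group
          _ = 1 := by rw [h.two _ (h.sq u hu), inv_one]
      · obtain ⟨w, hw, u, hu, e1, h1⟩ := key _ hy
        have hw' := hW.conj_mem w hw t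
        have h2 : y * y = w * (t * w * t⁻¹) := by
          calc y * y = (y * t) * (t * t)⁻¹ * (t * (y * t) * t⁻¹) := by group
            _ = w * (u * (t * w * t⁻¹)) * (t * u * t⁻¹) := by rw [e1, t2]; group
            _ = _ := by rw [h.cen _ hw' u hu, h1]; group
        rw [h2, mem_fixMod, mem_bot]
        refine ⟨mul_mem hw hw', ?_⟩
        calc t * (w * (t * w * t⁻¹)) * t⁻¹ * (w * (t * w * t⁻¹))⁻¹ =
            (t * w * t⁻¹) * ((t * t) * w * (t * t)⁻¹) * (w * (t * w * t⁻¹))⁻¹ := by group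
          _ = (t * w * t⁻¹) * w * (w * (t * w * t⁻¹))⁻¹ := by rw [t2]; group
          _ = 1 := by rw [h.cen _ hw _ (h.le hw')]; group)
  rw [MacW.card_adj fun e : t ∈ B => htR e.1, k3, cW] at hb
  rw [card_bot] at b2
  rw [k2, cW] at b1
  nlinarith

namespace C2
variable {R W : Subgroup G} (h : C2 R W)
include h

theorem mem {x y : G} (hx : x ∈ R) (hy : y ∈ R) : ⁅x, y⁆ ∈ W := comm_mem_of_sq h.sq hx hy

theorem mul_left {x y z : G} (hx : x ∈ R) (hy : y ∈ R) (hz : z ∈ R) :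
    ⁅x * y, z⁆ = ⁅x, z⁆ * ⁅y, z⁆ := by
  rw [comm_mul_left (h.cen _ (h.mem hy hz) _ hx), h.cen _ (h.mem hx hz) _ (h.le (h.mem hy hz))]

theorem mul_right {x y z : G} (hx : x ∈ R) (hy : y ∈ R) (hz : z ∈ R) :
    ⁅x, y * z⁆ = ⁅x, y⁆ * ⁅x, z⁆ := comm_mul_right (h.cen _ (h.mem hx hz) _ hy)

theorem symm {x y : G} (hx : x ∈ R) (hy : y ∈ R) : ⁅x, y⁆ = ⁅y, x⁆ := by
  rw [← commutatorElement_inv y x, inv_eq_of_mul_eq_one_right (h.two _ (h.mem hy hx))]

theorem of_mem {w y : G} (hw : w ∈ W) (hy : y ∈ R) : ⁅w, y⁆ = 1 :=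
  commutatorElement_eq_one_iff_mul_comm.2 (h.cen w hw y hy).symm

theorem congr_left {x x' y : G} (hx : x' ∈ R) (hy : y ∈ R) (e : x * x'⁻¹ ∈ W) :
    ⁅x, y⁆ = ⁅x', y⁆ := by
  rw [show x = x * x'⁻¹ * x' by group, h.mul_left (h.le e) hx hy, h.of_mem e hy, one_mul]

theorem mem_of {x x' : G} (hx : x' ∈ R) (e : x * x'⁻¹ ∈ W) : x ∈ R := by
  simpa using mul_mem (h.le e) hx

theorem congr {x x' y y' : G} (hx : x' ∈ R) (hy : y' ∈ R) (e : x * x'⁻¹ ∈ W) (e' : y * y'⁻¹ ∈ W) :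
    ⁅x, y⁆ = ⁅x', y'⁆ := by
  rw [h.congr_left hx (h.mem_of hy e') e, h.symm hx (h.mem_of hy e'), h.congr_left hy hx e',
    h.symm hy hx]

theorem sq_mul {x y : G} (hx : x ∈ R) (hy : y ∈ R) :
    x * y * (x * y) = x * x * (y * y) * ⁅x, y⁆ := by
  have h1 := h.cen _ (h.mem hy hx) _ (mul_mem hx hy)
  have h2 := h.cen _ (h.mem hy hx) _ hy
  rw [h.symm hx hy]
  calc x * y * (x * y) = x * (⁅y, x⁆ * (x * y)) * y := by rw [commutatorElement_def]; group
    _ = x * x * y * (⁅y, x⁆ * y) := by rw [← h1]; group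
    _ = _ := by rw [← h2]; group

theorem sq_congr {x x' : G} (hx : x' ∈ R) (e : x * x'⁻¹ ∈ W) : x * x = x' * x' := by
  rw [show x = x * x'⁻¹ * x' by group, h.sq_mul (h.le e) hx, h.two _ e, h.of_mem e hx]
  group

end C2

/-- The pentagon pattern. -/
def pat (i j : Fin 5) : Fin 3 := if i = j then 0 else if i - j = 1 ∨ j - i = 1 then 1 else 2

theorem vec_cases : ∀ a : Fin 5 → ZMod 2, ∃ k : ZMod 2, a = (fun _ => k) ∨
    (∃ i, a = (fun _ => k) + Pi.single i 1) ∨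
      ∃ i j, i ≠ j ∧ a = (fun _ => k) + Pi.single i 1 + Pi.single j 1 := by decide +kernel

theorem pat_fix : ∀ a b c d e : Fin 5, (∀ i j, pat (![a, b, c, d, e] i) (![a, b, c, d, e] j) = pat i j) →
    (∀ i, pat (![a, b, c, d, e] (![a, b, c, d, e] (![a, b, c, d, e] i))) i = 0) →
      ∀ i, ![a, b, c, d, e] i = i := by decide +kernel

/-- The orbit of a vector under an element of order five. -/
structure Pent (R W : Subgroup G) (v : Fin 5 → G) (b₁ b₂ : G) : Prop where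
  mem : ∀ i, v i ∈ R
  nmem : ∀ i j, i ≠ j → v i * v j ∉ W
  sq : ∀ i, v i * v i = b₁ * b₂
  comm : ∀ i j, ⁅v i, v j⁆ = ![1, b₁, b₂] (pat i j)
  cases : ∀ r ∈ R, r ∈ W ∨ (∃ i, r * (v i)⁻¹ ∈ W) ∨ ∃ i j, i ≠ j ∧ r * (v i * v j)⁻¹ ∈ W

theorem exists_pent [Finite G] {R W : Subgroup G} [hR : R.Normal] [hW : W.Normal] (h : C2 R W)
    (h2 : IsPGroup 2 R) (cR : Nat.card R = 16 * Nat.card W) {e : G} (he : e ^ 5 = 1)
    (fR : ∀ r ∈ R, e * r * e⁻¹ * r⁻¹ ∈ W → r ∈ W) (hc : ∀ w ∈ W, e * w * e⁻¹ = w) {x : G}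
    (hx : x ∈ R) (hxW : x ∉ W) : ∃ v b₁ b₂, Pent R W v b₁ b₂ ∧ v 0 = x := by
  obtain ⟨c, ρ, co⟩ := exists_co (n := 4) h.le h.sq cR
  let v : Fin 5 → G := fun i => e ^ i.val * x * (e ^ i.val)⁻¹
  have mem : ∀ i, v i ∈ R := fun i => hR.conj_mem x hx _
  have v0 : v 0 = x := by simp [v]
  have sh : ∀ i, e * v i * e⁻¹ = v (i + 1) := fun i => by
    have : e ^ (i + 1).val = e * e ^ i.val := by
      rw [Fin.val_add, ← pow_succ', ← pow_eq_pow_mod _ he]; rfl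
    simp only [v, this]; group
  have csh : ∀ i, (ρ e).mulVec (c (v i)) = c (v (i + 1)) := fun i => by
    rw [← co.conj e _ (mem i), sh]
  have fp : ∀ y, (ρ e).mulVec y = y → y = 0 := fun y hy => by
    obtain ⟨r, hr, rfl⟩ := co.surj y
    refine (co.zero r hr).2 (fR r hr ?_)
    rw [← co.eq_iff (hR.conj_mem r hr e) hr, co.conj e r hr, hy]
  have neg2 : ∀ v : Fin 4 → ZMod 2, -v = v := fun v => funext fun i => CharTwo.neg_eq _
  have bsh : ∀ i j, ⁅v (i + 1), v (j + 1)⁆ = ⁅v i, v j⁆ := fun i j => by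
    rw [← sh, ← sh, ← hc _ (h.mem (mem i) (mem j))]
    simp only [commutatorElement_def]; group
  have qsh : ∀ i, v (i + 1) * v (i + 1) = v i * v i := fun i => by
    rw [← sh, ← hc _ (h.sq _ (mem i))]; group
  have sum0 : c (v 0) + c (v 1) + c (v 2) + c (v 3) + c (v 4) = 0 := fp _ (by
    simp only [Matrix.mulVec_add, csh]
    change c (v 1) + c (v 2) + c (v 3) + c (v 4) + c (v 0) = _
    abel)
  have it : ∀ {P : Fin 5 → Prop}, P 0 → (∀ i, P i → P (i + 1)) → ∀ i, P i := fun h0 h1 i => by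
    have h2 := h1 0 h0
    have h3 := h1 1 h2
    have h4 := h1 2 h3
    have h5 := h1 3 h4
    fin_cases i <;> assumption
  have bk : ∀ i j, ⁅v i, v (j + i)⁆ = ⁅v 0, v j⁆ := fun i j => by
    revert i
    refine it (by rw [add_zero]) fun i hi => ?_
    rw [← add_assoc, bsh, hi]
  have sy : ∀ i j, ⁅v i, v j⁆ = ⁅v j, v i⁆ := fun i j => h.symm (mem i) (mem j)
  have comm : ∀ i j, ⁅v i, v j⁆ = ![1, ⁅v 0, v 1⁆, ⁅v 0, v 2⁆] (pat i j) := fun i j => by
    have : ∀ i j : Fin 5, (j - i = 0 ∧ pat i j = 0) ∨ ((j - i = 1 ∨ j - i = 4) ∧ pat i j = 1) ∨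
      ((j - i = 2 ∨ j - i = 3) ∧ pat i j = 2) := by decide
    rw [← sub_add_cancel j i, bk, sub_add_cancel]
    rcases this i j with ⟨h1, h2⟩ | ⟨h1 | h1, h2⟩ | ⟨h1 | h1, h2⟩ <;> rw [h1, h2]
    · exact commutatorElement_self _
    · rfl
    · exact (sy 0 4).trans (bk 4 1)
    · rfl
    · exact (sy 0 3).trans (bk 3 2)
  have qk : ∀ i, v i * v i = v 0 * v 0 := it rfl fun i hi => (qsh i).trans hi
  have m1 := h.mem (mem 0) (mem 1)
  have m2 := h.mem (mem 0) (mem 2)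
  have q : v 0 * v 0 = ⁅v 0, v 1⁆ * ⁅v 0, v 2⁆ := by
    have h01 := mul_mem (mem 0) (mem 1)
    have h23 := mul_mem (mem 2) (mem 3)
    have h1 : v 4 * (v 0 * v 1 * (v 2 * v 3))⁻¹ ∈ W := by
      rw [← co.eq_iff (mem 4) (mul_mem h01 h23), co.mul _ h01 _ h23, co.mul _ (mem 0) _ (mem 1),
        co.mul _ (mem 2) _ (mem 3), ← neg2 (c (v 4)), neg_eq_iff_add_eq_zero, ← sum0]
      abel
    have h2 := h.two _ (h.sq _ (mem 0))
    rw [← qk 4, h.sq_congr (mul_mem h01 h23) h1, h.sq_mul h01 h23, h.sq_mul (mem 0) (mem 1),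
      h.sq_mul (mem 2) (mem 3), qk 1, qk 2, qk 3, h2, h.mul_left (mem 0) (mem 1) h23,
      h.mul_right (mem 0) (mem 2) (mem 3), h.mul_right (mem 1) (mem 2) (mem 3), comm 2 3, comm 0 3,
      comm 1 2, comm 1 3]
    change 1 * ⁅v 0, v 1⁆ * (1 * ⁅v 0, v 1⁆) * (⁅v 0, v 2⁆ * ⁅v 0, v 2⁆ * (⁅v 0, v 1⁆ * ⁅v 0, v 2⁆)) = _
    rw [one_mul, h.two _ m1, h.two _ m2, one_mul, one_mul]
  have c0 : ∀ i, c (v i) ≠ 0 := it (fun e0 => hxW (v0 ▸ (co.zero _ (mem 0)).1 e0)) fun i hi e0 => by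
    apply hi
    have := (co.zero _ (mem _)).1 e0
    rw [← sh] at this
    exact (co.zero _ (mem i)).2 (by simpa [mul_assoc] using hW.conj_mem _ this e⁻¹)
  have n1 : ∀ i, c (v (i + 1)) ≠ c (v i) := fun i e0 => c0 i (fp _ (by rw [csh, e0]))
  have n2 : ∀ i, c (v (i + 2)) ≠ c (v i) := fun i e0 => by
    have st : ∀ a b, c (v a) = c (v b) → c (v (a + 1)) = c (v (b + 1)) := fun a b e1 => by
      rw [← csh, ← csh, e1]
    have e1 := st _ _ e0
    have e2 := st _ _ e1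
    have e3 := st _ _ (st _ _ e2)
    refine n1 i ?_
    rw [← e0, show i + 2 = i + 1 + 1 by omega, ← e2, show i + 2 + 1 + 1 = i + 1 + 1 + 1 + 1 by omega,
      ← e3, show i + 2 + 1 + 1 + 1 + 1 = i + 1 by omega]
  refine ⟨v, _, _, ⟨mem, fun i j hij e0 => ?_, fun i => (qk i).trans q, comm, fun r hr => ?_⟩, v0⟩
  · have e1 := (co.zero _ (mul_mem (mem i) (mem j))).2 e0
    rw [co.mul _ (mem i) _ (mem j), add_eq_zero_iff_neg_eq, neg2] at e1
    have : ∀ i j : Fin 5, i ≠ j → i = j + 1 ∨ j = i + 1 ∨ i = j + 2 ∨ j = i + 2 := by decide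
    rcases this i j hij with rfl | rfl | rfl | rfl
    exacts [n1 _ e1, n1 _ e1.symm, n2 _ e1, n2 _ e1.symm]
  · let φ : (Fin 5 → ZMod 2) →+ (Fin 4 → ZMod 2) :=
      (Fintype.linearCombination (ZMod 2) fun i => c (v i)).toAddMonoidHom
    have hφ : ∀ a, φ a = ∑ i, a i • c (v i) := fun a => rfl
    have hs : ∀ i, φ (Pi.single i 1) = c (v i) := fun i =>
      (Fintype.linearCombination_apply_single (ZMod 2) (fun i => c (v i)) i 1).trans (one_smul _ _)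
    have hk : ∀ k : ZMod 2, φ (fun _ => k) = 0 := fun k => by
      rw [hφ, ← Finset.smul_sum, Fin.sum_univ_five, sum0, smul_zero]
    have hWB : W ≤ co.pre φ.range := fun w hw => ⟨h.le hw, by rw [co.one h.le hw]; exact zero_mem _⟩
    have hB : e ∈ 𝐍[co.pre φ.range] := mem_normalizer_of_cj_le (cj_le_iff_forall.2 fun y hy => by
      obtain ⟨hy, a, ha⟩ := hy
      refine ⟨hR.conj_mem y hy e, fun i => a (i - 1), ?_⟩
      rw [co.conj e y hy, ← ha, hφ, hφ, Matrix.mulVec_sum, ← Equiv.sum_comp (Equiv.addRight 1)]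
      simp [Matrix.mulVec_smul, csh])
    have hle : co.pre φ.range ≤ R := fun y hy => hy.1
    have := (fpf5 hWB (h2.to_le hle) (cR ▸ card_le_of_le hle) (he ▸ one_mem _) hB
      ⟨x, ⟨hx, _, v0 ▸ hs 0⟩, fun e0 => hxW (fR x hx e0)⟩).1
    obtain ⟨-, a, ha⟩ := (eq_of_le_of_card_ge hle (by rw [this, cR])).ge hr
    obtain ⟨k, rfl | ⟨i, rfl⟩ | ⟨i, j, hij, rfl⟩⟩ := vec_cases a
    · exact Or.inl ((co.zero r hr).1 (by rw [← ha, hk]))
    · exact Or.inr (Or.inl ⟨i, (co.eq_iff hr (mem i)).1 (by rw [← ha, map_add, hk, hs, zero_add])⟩)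
    · refine Or.inr (Or.inr ⟨i, j, hij, (co.eq_iff hr (mul_mem (mem i) (mem j))).1 ?_⟩)
      rw [← ha, map_add, map_add, hk, hs, hs, zero_add, co.mul _ (mem i) _ (mem j)]

theorem pat_ne : ∀ i j : Fin 5, i ≠ j → pat i j = 1 ∨ pat i j = 2 := by decide

namespace Pent
variable {R W : Subgroup G} {v : Fin 5 → G} {b₁ b₂ : G} (h : C2 R W) (P : Pent R W v b₁ b₂)
include h P

theorem m1 : b₁ ∈ W := (show ⁅v 0, v 1⁆ = b₁ from P.comm 0 1) ▸ h.mem (P.mem 0) (P.mem 1)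

theorem m2 : b₂ ∈ W := (show ⁅v 0, v 2⁆ = b₂ from P.comm 0 2) ▸ h.mem (P.mem 0) (P.mem 2)

theorem pair (i j : Fin 5) : v i * v j * (v i * v j) = ⁅v i, v j⁆ := by
  rw [h.sq_mul (P.mem i) (P.mem j), P.sq, P.sq, h.two _ (mul_mem (P.m1 h) (P.m2 h)), one_mul]

theorem sqs {r : G} (hr : r ∈ R) : r * r = 1 ∨ (r * r = b₁ * b₂ ∧ ∃ i, r * (v i)⁻¹ ∈ W) ∨
    r * r = b₁ ∨ r * r = b₂ := by
  rcases P.cases r hr with e | ⟨i, e⟩ | ⟨i, j, hij, e⟩
  · exact Or.inl (h.two r e)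
  · exact Or.inr (Or.inl ⟨(h.sq_congr (P.mem i) e).trans (P.sq i), i, e⟩)
  · rw [h.sq_congr (mul_mem (P.mem i) (P.mem j)) e, P.pair h, P.comm]
    rcases pat_ne i j hij with e1 | e1 <;> rw [e1]
    exacts [Or.inr (Or.inr (Or.inl rfl)), Or.inr (Or.inr (Or.inr rfl))]

theorem Sq_le {K : Subgroup G} (h1 : b₁ ∈ K) (h2 : b₂ ∈ K) : Sq R ≤ K := Sq_le_iff.2 fun r hr => by
  rcases P.sqs h hr with e | ⟨e, -⟩ | e | e <;> rw [e]
  exacts [one_mem _, mul_mem h1 h2, h1, h2]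

theorem card_le [Finite G] [hR : R.Normal] [hW : W.Normal] (hgen : W ≤ Sq R) {d : G}
    (hd3 : d ^ 3 ∈ R) (hc : ∀ w ∈ W, d * w * d⁻¹ = w) (hd : ∃ r ∈ R, d * r * d⁻¹ * r⁻¹ ∉ W) :
    Nat.card W ≤ 2 := by
  have hz : ∀ b ∈ W, Sq R ≤ zpowers b → Nat.card W ≤ 2 := fun b hb e => by
    refine (card_le_of_le (hgen.trans e)).trans ?_
    rw [Nat.card_zpowers]
    exact orderOf_le_of_pow_eq_one (by norm_num) (by rw [pow_two, h.two b hb])
  by_cases n1 : b₁ = 1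
  · exact hz _ (P.m2 h) (P.Sq_le h (n1 ▸ one_mem _) (mem_zpowers _))
  by_cases n2 : b₂ = 1
  · exact hz _ (P.m1 h) (P.Sq_le h (mem_zpowers _) (n2 ▸ one_mem _))
  by_cases n3 : b₁ = b₂
  · exact hz _ (P.m1 h) (P.Sq_le h (mem_zpowers _) (n3 ▸ mem_zpowers _))
  exfalso
  have hσ : ∀ i, ∃ j, d * v i * d⁻¹ * (v j)⁻¹ ∈ W := fun i => by
    have e0 : d * v i * d⁻¹ * (d * v i * d⁻¹) = b₁ * b₂ := by
      rw [← hc _ (mul_mem (P.m1 h) (P.m2 h)), ← P.sq i]; group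
    rcases P.sqs h (hR.conj_mem _ (P.mem i) d) with e | ⟨-, e⟩ | e | e
    · rw [e0, ← h.two _ (P.m2 h)] at e
      exact absurd (mul_right_cancel e) n3
    · exact e
    · exact absurd (by simpa [e0] using e) n2
    · exact absurd (by simpa [e0] using e) n1
  choose σ hσ using hσ
  have inj : ∀ a b : Fin 3, ![1, b₁, b₂] a = ![1, b₁, b₂] b → a = b := fun a b => by
    fin_cases a <;> fin_cases b <;> simp [n1, n2, n3, eq_comm]
  have p1 : ∀ i j, pat (σ i) (σ j) = pat i j := fun i j => inj _ _ (by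
    rw [← P.comm, ← P.comm, ← h.congr (P.mem _) (P.mem _) (hσ i) (hσ j),
      ← hc _ (h.mem (P.mem i) (P.mem j))]
    simp only [commutatorElement_def]; group)
  have p2 : ∀ i, pat (σ (σ (σ i))) i = 0 := fun i => inj _ _ (by
    have e1 : d ^ 3 * v i * (d ^ 3)⁻¹ * (v (σ (σ (σ i))))⁻¹ ∈ W := by
      convert mul_mem (mul_mem (hW.conj_mem _ (hσ i) (d * d)) (hW.conj_mem _ (hσ (σ i)) d))
        (hσ (σ (σ i))) using 1
      simp [pow_succ, mul_assoc]
    have e2 : v i * (v (σ (σ (σ i))))⁻¹ ∈ W := by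
      convert mul_mem (inv_mem (h.mem hd3 (P.mem i))) e1 using 1
      simp [commutatorElement_def, mul_assoc]
    rw [← P.comm, ← h.congr_left (P.mem _) (P.mem i) e2]
    exact commutatorElement_self _)
  have e0 : σ = ![σ 0, σ 1, σ 2, σ 3, σ 4] := by ext i; fin_cases i <;> rfl
  have p3 : ∀ i, σ i = i := e0 ▸ pat_fix _ _ _ _ _ (e0 ▸ p1) (e0 ▸ p2)
  obtain ⟨r, hr, hr'⟩ := hd
  have hv : ∀ i, v i ∈ fixMod R W d := fun i => mem_fixMod.2 ⟨P.mem i, by simpa [p3 i] using hσ i⟩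
  refine hr' (mem_fixMod.1 (?_ : r ∈ fixMod R W d)).2
  rcases P.cases r hr with e | ⟨i, e⟩ | ⟨i, j, -, e⟩
  · exact le_fixMod h.le d e
  · simpa using mul_mem (le_fixMod h.le d e) (hv i)
  · simpa [mul_assoc] using mul_mem (le_fixMod h.le d e) (mul_mem (hv i) (hv j))

end Pent

/-- `R` is extraspecial of order 32 with five anticommuting involutions. -/
structure Fr (R : Subgroup G) (z : G) (a : Fin 5 → G) : Prop where
  es : IsES 2 z R
  card : Nat.card R = 32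
  mem : ∀ i, a i ∈ R
  sq : ∀ i, a i * a i = 1
  comm : ∀ i j, i ≠ j → ⁅a i, a j⁆ = z

theorem exists_fr [Finite G] {R W : Subgroup G} [hR : R.Normal] [hW : W.Normal] (h : C2 R W)
    (h2 : IsPGroup 2 R) (cR : Nat.card R = 16 * Nat.card W) {e : G} (he : e ^ 5 = 1)
    (fR : ∀ r ∈ R, e * r * e⁻¹ * r⁻¹ ∈ W → r ∈ W) (hc : ∀ w ∈ W, e * w * e⁻¹ = w)
    (cW : Nat.card W = 2) (hgen : W ≤ Sq R) : ∃ z a, Fr R z a := by
  obtain ⟨z, hz1, hzW, hz⟩ : ∃ z, z ≠ 1 ∧ z ∈ W ∧ ∀ w ∈ W, w = 1 ∨ w = z := by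
    obtain ⟨z, h1, h3⟩ := (Nat.card_eq_two_iff' (1 : W)).1 cW
    refine ⟨z, fun e => h1 (Subtype.ext e), z.2, fun w hw => ?_⟩
    by_cases e : (⟨w, hw⟩ : W) = 1
    · exact Or.inl (congrArg Subtype.val e)
    · exact Or.inr (congrArg Subtype.val (h3 _ e))
  obtain ⟨x, hx, hxW⟩ : ∃ x ∈ R, x ∉ W := by
    by_contra! H
    have := card_le_of_le (show R ≤ W from H)
    omega
  obtain ⟨y, hy, hyW, hy2⟩ : ∃ y ∈ R, y ∉ W ∧ y * y = 1 := by
    obtain ⟨v, b₁, b₂, P, rfl⟩ := exists_pent h h2 cR he fR hc hx hxW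
    rcases hz _ (P.m1 h) with e1 | e1
    · exact ⟨_, mul_mem (P.mem 0) (P.mem 1), P.nmem 0 1 (by decide), by rw [P.pair h, P.comm, ← e1]; rfl⟩
    rcases hz _ (P.m2 h) with e2 | e2
    · exact ⟨_, mul_mem (P.mem 0) (P.mem 2), P.nmem 0 2 (by decide), by rw [P.pair h, P.comm, ← e2]; rfl⟩
    · exact ⟨_, hx, hxW, by rw [P.sq, e1, e2, h.two z hzW]⟩
  obtain ⟨v, b₁, b₂, P, rfl⟩ := exists_pent h h2 cR he fR hc hy hyW
  have e12 : b₁ = b₂ := by
    rw [P.sq, ← h.two _ (P.m2 h)] at hy2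
    exact mul_right_cancel hy2
  subst e12
  have e1 : b₁ = z := (hz _ (P.m1 h)).resolve_left fun e1 =>
    hz1 (mem_bot.1 (P.Sq_le h (K := ⊥) (e1 ▸ one_mem _) (e1 ▸ one_mem _) (hgen hzW)))
  subst e1
  have hco : ∀ i j, i ≠ j → ⁅v i, v j⁆ = b₁ := fun i j hij => by
    rw [P.comm]
    rcases pat_ne i j hij with e1 | e1 <;> rw [e1] <;> rfl
  have hWz : ∀ w ∈ W, w ∈ zpowers b₁ := fun w hw => by
    rcases hz w hw with rfl | rfl
    exacts [one_mem _, mem_zpowers _]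
  refine ⟨b₁, v, ⟨orderOf_eq_prime (by rw [sq, h.two _ hzW]) hz1, h.le hzW,
    fun s hs => h.cen _ hzW s hs, fun a ha b hb => hWz _ (h.mem ha hb), fun a ha hc => hWz _ ?_⟩,
    by rw [cR, cW], P.mem, fun i => (P.sq i).trans (h.two _ hzW), hco⟩
  rcases P.cases a ha with e0 | ⟨i, e0⟩ | ⟨i, j, hij, e0⟩
  · exact e0
  · have := commutatorElement_eq_one_iff_commute.2 (hc _ (P.mem (i + 1)))
    rw [h.congr_left (P.mem i) (P.mem _) e0, hco _ _ (by omega)] at this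
    exact absurd this hz1
  · have := commutatorElement_eq_one_iff_commute.2 (hc _ (P.mem i))
    rw [h.congr_left (mul_mem (P.mem i) (P.mem j)) (P.mem _) e0,
      h.mul_left (P.mem i) (P.mem j) (P.mem i), hco _ _ hij.symm, commutatorElement_self,
      one_mul] at this
    exact absurd this hz1

theorem a5_elts : ∃ e t d : alternatingGroup (Fin 5), e ^ 5 = 1 ∧ e ≠ 1 ∧ t * e * t⁻¹ = e ^ 4 ∧
    t * t = 1 ∧ t ≠ 1 ∧ d ^ 3 = 1 ∧ d ≠ 1 :=
  ⟨⟨Equiv.swap 0 1 * Equiv.swap 1 2 * Equiv.swap 2 3 * Equiv.swap 3 4, by simp⟩,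
    ⟨Equiv.swap 1 4 * Equiv.swap 2 3, by simp⟩, ⟨Equiv.swap 0 1 * Equiv.swap 1 2, by simp⟩,
    by decide, by decide, by decide, by decide, by decide, by decide, by decide⟩

theorem cen_top {S : Type*} [Group S] [IsSimpleGroup S] {π : G →* S} (hs : Function.Surjective π)
    {N : Subgroup G} [N.Normal] (hN : ∀ x ∈ N, ∀ r ∈ π.ker, r * x = x * r) {e : G} (h1 : π e ≠ 1)
    (he : ∀ x ∈ N, e * x * e⁻¹ = x) (g : G) : ∀ x ∈ N, g * x * g⁻¹ = x := fun x hx => by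
  have := (ker_or_top hs (M := 𝐂[N]) fun r hr x hx => (hN x hx r hr).symm).resolve_left fun e0 =>
    h1 (e0.le fun x hx => (mul_inv_eq_iff_eq_mul.1 (he x hx)).symm)
  exact mul_inv_eq_iff_eq_mul.2 (this.ge (mem_top g) x hx).symm

theorem main5 : ∀ (n : ℕ) (Y : Type u) [Group Y] [Finite Y] (π : Y →* alternatingGroup (Fin 5)),
    Function.Surjective π → IsPGroup 2 π.ker → SectionalPRankLE 2 4 Y → Faith π → Nat.card Y = n →
      ((∀ x ∈ π.ker, x * x = 1) ∧ Nat.card π.ker = 16) ∨ ∃ z a, Fr π.ker z a := by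
  intro n
  induction n using Nat.strong_induction_on with
  | _ n ih =>
  intro Y _ _ π hs h2 hr hf hn
  obtain ⟨e₀, t₀, d₀, e5, e1, te, tt, t1, d3, d1⟩ := a5_elts
  obtain ⟨e, rfl, he⟩ := exists_lift_pow hs h2 (by norm_num) (by norm_num) e5
  obtain ⟨t, rfl, ht⟩ := exists_lift_norm hs h2 (by norm_num) (by norm_num) he e1 te
  obtain ⟨d, rfl⟩ := hs d₀
  have nt : ∀ g, π g ≠ 1 → ∃ r ∈ π.ker, g * r * g⁻¹ * r⁻¹ ∉ Sq π.ker := fun g hg => by
    by_contra! H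
    exact hg (hf g H)
  have nm : ∀ (K : Subgroup Y) [K.Normal] (g : Y), g ∈ 𝐍[K] := fun K _ g => by
    rw [normalizer_eq_top]; trivial
  obtain ⟨cR, fR⟩ := fpf5 (Sq_le _) h2 (bound hr (Sq_le _) fun x hx => sq_mem_Sq hx)
    (he ▸ one_mem _) (nm _ e) (nt e e1)
  by_cases hq : Sq π.ker = ⊥
  · exact Or.inl ⟨fun x hx => mem_bot.1 (hq ▸ sq_mem_Sq hx), by rw [cR, hq, card_bot]⟩
  obtain ⟨N, hN, N1, NS, N2, Nc, Nm⟩ := exists_min h2 (Sq_le _) hq
  have hNR := NS.trans (Sq_le _)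
  have hcase : (Nat.card N = 16 ∧ ∀ r ∈ N, e * r * e⁻¹ * r⁻¹ ∈ (⊥ : Subgroup Y) →
      r ∈ (⊥ : Subgroup Y)) ∨ (Nat.card N = 2 ∧ ∀ g, ∀ x ∈ N, g * x * g⁻¹ = x) := by
    by_cases H : ∃ r ∈ N, e * r * e⁻¹ * r⁻¹ ∉ (⊥ : Subgroup Y)
    · have := fpf5 bot_le (h2.to_le hNR) (bound hr bot_le fun x hx => mem_bot.2 (N2 x hx))
        (he ▸ one_mem _) (nm _ e) H
      exact Or.inl ⟨by simpa using this.1, this.2⟩
    · push Not at H
      have hc := cen_top hs Nc e1 fun x hx => mul_inv_eq_one.1 (mem_bot.1 (H x hx))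
      refine Or.inr ⟨?_, hc⟩
      obtain ⟨⟨x, hx⟩, hx1⟩ := (Subgroup.ne_bot_iff_exists_ne_one.1 N1)
      have hx1 : x ≠ 1 := fun e => hx1 (Subtype.ext e)
      have : (zpowers x).Normal := ⟨fun y hy g => by
        rw [hc g y (zpowers_le.2 hx hy)]; exact hy⟩
      rw [← (Nm _ this (zpowers_le.2 hx)).resolve_left (by simpa using hx1), Nat.card_zpowers]
      exact orderOf_eq_prime (by rw [sq, N2 x hx]) hx1
  have IH := ih _ (hn ▸ card_quot_lt N N1) (Y ⧸ N) (QuotientGroup.lift N π hNR)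
    (QuotientGroup.lift_surjective_of_surjective _ _ hs _) (by rw [ker_lift]; exact h2.map _)
    (FGS.SecRank.quotient hr N) (hf.lift N NS) rfl
  rw [ker_lift] at IH
  have htt : t * t ∈ π.ker := by rw [MonoidHom.mem_ker, map_mul, tt]
  have hd3 : d ^ 3 ∈ π.ker := by rw [MonoidHom.mem_ker, map_pow, d3]
  rcases IH with ⟨I1, -⟩ | ⟨z', a', F⟩
  · have hSN : Sq π.ker = N := le_antisymm (Sq_le_iff.2 fun x hx => by
      have := I1 _ ⟨x, hx, rfl⟩
      rwa [← map_mul, QuotientGroup.mk'_apply, QuotientGroup.eq_one_iff] at this) NS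
    have C : C2 π.ker N := ⟨hNR, fun x hx => hSN ▸ sq_mem_Sq hx, N2, Nc⟩
    rw [hSN] at cR fR
    rcases hcase with ⟨c1, c2⟩ | ⟨c1, c2⟩
    · exact (two_big hr C he ht htt t1 cR fR c1 c2).elim
    · exact Or.inr (exists_fr C h2 cR he fR (c2 e) c1 NS)
  exfalso
  have cS : Nat.card (Sq π.ker) = 2 * Nat.card N := by
    have h1 := card_map_mk hNR
    rw [F.card, cR] at h1
    omega
  obtain ⟨z, hzR, rfl⟩ := F.es.mem
  have hz1 : z ∉ N := fun e0 => F.es.z_ne_one ((QuotientGroup.eq_one_iff z).2 e0)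
  have hz2 : ∀ y ∈ Sq π.ker, y ∈ N ∨ y * z⁻¹ ∈ N := fun y hy => by
    have h1 : Sq (π.ker.map (QuotientGroup.mk' N)) ≤ zpowers (QuotientGroup.mk' N z) :=
      Sq_le_iff.2 fun x hx => sq x ▸ F.es.pow_mem hx
    rw [Sq_map] at h1
    rcases F.es.eq_one_or_eq (h1 ⟨y, hy, rfl⟩) with e0 | e0
    · exact Or.inl ((QuotientGroup.eq_one_iff y).1 e0)
    · right
      rw [← QuotientGroup.eq_one_iff, QuotientGroup.mk_mul, QuotientGroup.mk_inv]
      exact mul_inv_eq_one.2 e0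
  have hzS : z ∈ Sq π.ker := by
    by_contra e0
    have : Sq π.ker ≤ N := fun y hy => (hz2 y hy).resolve_right fun e1 =>
      e0 (by simpa using mul_mem (inv_mem (NS e1)) hy)
    have := card_le_of_le this
    have : 0 < Nat.card N := Nat.card_pos
    omega
  have hzz : z * z ∈ N := by
    rw [← QuotientGroup.eq_one_iff, QuotientGroup.mk_mul]
    exact F.es.z_mul_z
  have hgz : ∀ g, g * z * g⁻¹ * z⁻¹ ∈ N := fun g =>
    (hz2 _ ((Sq_normal _).conj_mem z hzS g)).resolve_left fun e0 =>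
      hz1 (by simpa [mul_assoc] using hN.conj_mem _ e0 g⁻¹)
  have sqn : ∀ w ∈ N, w * z * (w * z) = z * z := fun w hw => by
    calc w * z * (w * z) = w * (z * w) * z := by group
      _ = (w * w) * (z * z) := by rw [Nc w hw z hzR]; group
      _ = _ := by rw [N2 w hw, one_mul]
  have two : z * z = 1 → ∀ y ∈ Sq π.ker, y * y = 1 := fun e0 y hy => by
    rcases hz2 y hy with e1 | e1
    · exact N2 y e1
    · rw [← e0, ← sqn _ e1]; group
  rcases hcase with ⟨c1, c2⟩ | ⟨c1, c2⟩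
  · have e0 : z * z = 1 := mem_bot.1 (c2 _ hzz (by
      rw [mem_bot, mul_inv_eq_one]
      exact Eq.trans (by group) (sqn _ (hgz e))))
    have := bound hr (N := ⊥) bot_le fun y hy => mem_bot.2 (two e0 y hy)
    rw [card_bot] at this
    omega
  have hN2 : ∀ a ∈ N, ∀ b ∈ N, a ≠ 1 → b ≠ 1 → a = b := fun a ha b hb a1 b1 => by
    obtain ⟨w, -, h3⟩ := (Nat.card_eq_two_iff' (1 : N)).1 c1
    exact congrArg Subtype.val ((h3 ⟨a, ha⟩ fun e => a1 (congrArg Subtype.val e)).trans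
      (h3 ⟨b, hb⟩ fun e => b1 (congrArg Subtype.val e)).symm)
  -- `g` acting on `z`
  have mulz : ∀ g h, g * h * z * (g * h)⁻¹ * z⁻¹ =
      (h * z * h⁻¹ * z⁻¹) * (g * z * g⁻¹ * z⁻¹) := fun g h => by
    rw [← c2 g _ (hgz h)]; group
  have powz : ∀ g (k : ℕ), g ^ k * z * (g ^ k)⁻¹ * z⁻¹ = (g * z * g⁻¹ * z⁻¹) ^ k := fun g k => by
    induction k with
    | zero => simp
    | succ k ih => rw [pow_succ, mulz, ih, pow_succ']
  have ez : e * z * e⁻¹ = z := by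
    have h1 := powz e 5
    rw [he, show 5 = 2 * 2 + 1 by norm_num, pow_succ, pow_mul, sq (e * z * e⁻¹ * z⁻¹),
      N2 _ (hgz e)] at h1
    exact mul_inv_eq_one.1 (by simpa using h1.symm)
  have eS : ∀ y ∈ Sq π.ker, e * y * e⁻¹ = y := fun y hy => by
    rcases hz2 y hy with e1 | e1
    · exact c2 e y e1
    · calc e * y * e⁻¹ = e * (y * z⁻¹) * e⁻¹ * (e * z * e⁻¹) := by group
        _ = y := by rw [c2 e _ e1, ez]; group
  have zc : ∀ r ∈ π.ker, r * z = z * r := by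
    let K := π.ker ⊓ centralizer {z}
    have hK : ∀ r, r ∈ K ↔ r ∈ π.ker ∧ r * z * r⁻¹ * z⁻¹ = 1 := fun r => by
      rw [mem_inf, mem_centralizer_singleton_iff, mul_inv_eq_one, mul_inv_eq_iff_eq_mul]
    have k1 : Sq π.ker ≤ K := Sq_le_iff.2 fun r hr =>
      (hK _).2 ⟨mul_mem hr hr, by rw [mulz, N2 _ (hgz r)]⟩
    have k2 : Nat.card π.ker ≤ 2 * Nat.card K := by
      have := MacW.card_le_ncard_mul π.ker K (T := N) (Set.toFinite _)
        (fun r => r * z * r⁻¹ * z⁻¹) (fun r _ => hgz r) fun x hx y hy e0 => (hK _).2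
          ⟨mul_mem (inv_mem hx) hy, by
            have h1 := mulz x⁻¹ x
            rw [mulz, ← e0, ← h1]; simp⟩
      rwa [inf_eq_right.2 inf_le_left, ← Nat.card_coe_set_eq, SetLike.coe_sort_coe, c1] at this
    have k3 : e ∈ 𝐍[K] := mem_normalizer_of_cj_le (cj_le_iff_forall.2 fun r hr => (hK _).2
      ⟨(inferInstance : π.ker.Normal).conj_mem r hr.1 e, by
        have h1 := ((hK r).1 hr).2
        calc e * r * e⁻¹ * z * (e * r * e⁻¹)⁻¹ * z⁻¹ =
            e * r * e⁻¹ * (e * z * e⁻¹) * (e * r * e⁻¹)⁻¹ * (e * z * e⁻¹)⁻¹ := by rw [ez]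
          _ = e * (r * z * r⁻¹ * z⁻¹) * e⁻¹ := by group
          _ = 1 := by rw [h1]; group⟩)
    have k4 : ∃ r ∈ K, e * r * e⁻¹ * r⁻¹ ∉ Sq π.ker := by
      by_contra! H
      have := card_le_of_le (show K ≤ Sq π.ker from fun r hr => fR r hr.1 (H r hr))
      omega
    have k5 := (fpf5 k1 (h2.to_le inf_le_left) (cR ▸ card_le_of_le inf_le_left) (he ▸ one_mem _)
      k3 k4).1
    intro r hr
    exact ((eq_of_le_of_card_ge (inf_le_left : K ≤ _) (by rw [k5, cR])).ge hr).2 z rfl |>.symm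
  have Sc : ∀ y ∈ Sq π.ker, ∀ r ∈ π.ker, r * y = y * r := fun y hy r hr => by
    rcases hz2 y hy with e1 | e1
    · exact Nc y e1 r hr
    · calc r * y = r * (y * z⁻¹) * z := by group
        _ = (y * z⁻¹) * (r * z) := by rw [Nc _ e1 r hr]; group
        _ = y * r := by rw [zc r hr]; group
  have e0 : z * z = 1 := by
    have h1 : ∀ a ∈ π.ker, ∀ b ∈ π.ker, ⁅a, b⁆ * ⁅a, b⁆ = 1 := fun a ha b hb => by
      have h3 : ⁅a, b⁆ ∈ Sq π.ker := comm_mem_of_sq (fun x hx => sq_mem_Sq hx) ha hb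
      rw [← comm_mul_left (Sc _ h3 a ha)]
      exact commutatorElement_eq_one_iff_mul_comm.2 (Sc _ (sq_mem_Sq ha) b hb).symm
    obtain ⟨x, hx, ex⟩ := F.mem 0
    obtain ⟨y, hy, ey⟩ := F.mem 1
    have h3 := F.comm 0 1 (by decide)
    rw [← ex, ← ey, ← map_commutatorElement] at h3
    have h4 : ⁅x, y⁆ * z⁻¹ ∈ N := by
      rw [← QuotientGroup.eq_one_iff, QuotientGroup.mk_mul, QuotientGroup.mk_inv]
      exact mul_inv_eq_one.2 h3
    rw [← sqn _ h4, ← h1 x hx y hy]; group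
  have C : C2 π.ker (Sq π.ker) := ⟨Sq_le _, fun x hx => sq_mem_Sq hx, two e0, Sc⟩
  obtain ⟨x, hx, hxW⟩ := nt e e1
  obtain ⟨v, b₁, b₂, P, -⟩ := exists_pent C h2 cR he fR eS hx fun e0 =>
    hxW (mul_mem ((Sq_normal _).conj_mem x e0 e) (inv_mem e0))
  have := P.card_le C le_rfl hd3 (cen_top hs Sc e1 eS d) (nt d d1)
  omega

theorem Fr.map {H : Type*} [Group H] {R : Subgroup G} {z : G} {a : Fin 5 → G} (F : Fr R z a)
    (f : G →* H) (hf : Function.Injective f) : Fr (R.map f) (f z) (fun i => f (a i)) :=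
  ⟨F.es.map_of_injective f hf, by rw [card_map_of_injective hf, F.card], fun i => ⟨_, F.mem i, rfl⟩,
    fun i => by rw [← map_mul, F.sq, map_one],
    fun i j h => by rw [← map_commutatorElement, F.comm i j h]⟩

/-- Restricting to the preimage of a subgroup of the quotient. -/
theorem exists_restrict {S : Type*} [Group S] (R : Subgroup G) [R.Normal] (A : Subgroup (G ⧸ R))
    (e : A ≃* S) : ∃ (Y : Subgroup G) (π : Y →* S), Function.Surjective π ∧ R ≤ Y ∧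
      π.ker = R.subgroupOf Y := by
  let Y := A.comap (QuotientGroup.mk' R)
  let φ : Y →* A := (QuotientGroup.mk' R).subgroupComap A
  refine ⟨Y, e.toMonoidHom.comp φ, e.surjective.comp
    ((QuotientGroup.mk' R).subgroupComap_surjective_of_surjective A (QuotientGroup.mk'_surjective R)),
    fun r hr => ?_, ?_⟩
  · change QuotientGroup.mk' R r ∈ A
    rw [QuotientGroup.mk'_apply, (QuotientGroup.eq_one_iff r).2 hr]
    exact one_mem _
  · ext x
    rw [mem_subgroupOf, MonoidHom.mem_ker, MonoidHom.comp_apply, MulEquiv.coe_toMonoidHom,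
      e.map_eq_one_iff, ← QuotientGroup.eq_one_iff]
    exact Subtype.ext_iff

theorem five {X : Type u} [Group X] [Finite X] {R : Subgroup X} [R.Normal] (h2 : IsPGroup 2 R)
    (hC : 𝐂[R] ≤ R) (hr : SectionalPRankLE 2 4 X) (A : Subgroup (X ⧸ R))
    (e : A ≃* alternatingGroup (Fin 5)) :
    ((∀ x ∈ R, x * x = 1) ∧ Nat.card R = 16) ∨ ∃ z a, Fr R z a := by
  obtain ⟨Y, π, hs, hle, hk⟩ := exists_restrict R A e
  have h3 : IsPGroup 2 π.ker := hk ▸ isPGroup_subgroupOf h2 Y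
  have hf : Faith π := faith_of_charP hs h3
    (by rw [hk, centralizer_subgroupOf hle]; exact subgroupOf_mono _ hC) fun H => by
      obtain ⟨e, -, -, e5, e1, -⟩ := a5_elts
      obtain ⟨k, hk⟩ := H e
      have := Nat.Coprime.eq_one_of_dvd (Nat.Coprime.pow_right k (by norm_num : Nat.Coprime 5 2))
        ((orderOf_eq_prime (hp := ⟨by norm_num⟩) e5 e1) ▸ orderOf_dvd_of_pow_eq_one hk)
      norm_num at this
  rcases main5 _ Y π hs h3 (FGS.SecRank.subgroup hr Y) hf rfl with ⟨h4, h5⟩ | ⟨z, a, F⟩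
  · rw [hk] at h4 h5
    exact Or.inl ⟨fun x hx => congrArg Subtype.val (h4 ⟨x, hle hx⟩ hx),
      by rw [← h5, Nat.card_congr (subgroupOfEquivOfLe hle).toEquiv]⟩
  · have := F.map Y.subtype Subtype.val_injective
    rw [hk, map_subgroupOf_of_le hle] at this
    exact Or.inr ⟨_, _, this⟩

end Cfsg.Agent.GHE
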