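import Mathlib
import Cfsg.Agent.GHE.Five

/-! Elements of order seven acting on 2-groups of sectional rank at most four. -/

set_option autoImplicit false
set_option linter.unusedSectionVars false

namespace Cfsg.Agent.GHE
open Cfsg Subgroup Cfsg.Agent.PLocal.Amb

variable {G : Type*} [Group G] {e : G}

theorem fix_of_pow (he : e ^ 7 = 1) {i : ℕ} (hi : ¬ 7 ∣ i) {x : G}
    (h : e ^ i * x * (e ^ i)⁻¹ = x) : e * x * e⁻¹ = x := by
  obtain ⟨m, hm⟩ := exists_pow_eq_self_of_coprime (x := e) (n := i)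
    (((Nat.Prime.coprime_iff_not_dvd (by norm_num)).2 hi).symm.coprime_dvd_right
      (orderOf_dvd_of_pow_eq_one he))
  have : Commute (e ^ i) x := mul_inv_eq_iff_eq_mul.1 h
  exact mul_inv_eq_iff_eq_mul.2 (hm ▸ this.pow_left m).eq

theorem pow7_of_fix (he : e ^ 7 = 1) {r : G} (h : Commute e (e * r * e⁻¹ * r⁻¹)) :
    (e * r * e⁻¹ * r⁻¹) ^ 7 = 1 := by
  have : ∀ k : ℕ, e ^ k * r * (e ^ k)⁻¹ = (e * r * e⁻¹ * r⁻¹) ^ k * r := fun k => by
    induction k with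
    | zero => simp
    | succ k ih =>
      rw [pow_succ' e, show e * e ^ k * r * (e * e ^ k)⁻¹ = e * (e ^ k * r * (e ^ k)⁻¹) * e⁻¹ by group,
        ih, ← mul_assoc, (h.pow_right k).eq, pow_succ]
      simp [mul_assoc]
  simpa [he] using (this 7).symm

theorem eq_one_of_seven {R : Subgroup G} (h2 : IsPGroup 2 R) {x : G} (hx : x ∈ R)
    (h : x ^ 7 = 1) : x = 1 := by
  obtain ⟨k, hk⟩ := h2 ⟨x, hx⟩
  rw [← pow_one x, ← (Nat.Coprime.pow_right k (by norm_num : Nat.Coprime 7 2)).gcd_eq_one]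
  exact pow_gcd_eq_one.2 ⟨h, congrArg Subtype.val hk⟩

theorem conj_pow_mem {U : Subgroup G} (hn : e ∈ 𝐍[U]) {u : G} (hu : u ∈ U) (i : ℕ) :
    e ^ i * u * (e ^ i)⁻¹ ∈ U := (mem_normalizer_iff.1 (pow_mem hn i) u).1 hu

theorem trans8 [Finite G] {U : Subgroup G} (hU : Nat.card U = 8) (he : e ^ 7 = 1) (hn : e ∈ 𝐍[U])
    (hf : ∀ u ∈ U, e * u * e⁻¹ = u → u = 1) {u v : G} (hu : u ∈ U) (hv : v ∈ U) (u1 : u ≠ 1)
    (v1 : v ≠ 1) : ∃ i < 7, v = e ^ i * u * (e ^ i)⁻¹ := by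
  classical
  have := Fintype.ofFinite U
  let f : Fin 7 → U := fun i => ⟨_, conj_pow_mem hn hu i⟩
  have hi : Function.Injective f := fun i j h => by
    wlog hij : i ≤ j generalizing i j
    · exact (this _ _ h.symm (le_of_not_ge hij)).symm
    obtain ⟨k, hk⟩ := Nat.exists_eq_add_of_le hij
    by_contra a
    refine u1 (hf u hu (fix_of_pow he (i := k) (by have := j.2; have := Fin.val_ne_of_ne a; omega) ?_))
    have h := congrArg Subtype.val h
    simp only [f, hk, pow_add] at h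
    have h' := congrArg (fun z => (e ^ (i : ℕ))⁻¹ * z * e ^ (i : ℕ)) h.symm
    simpa [mul_assoc] using h'
  have h1 : Finset.univ.image f = Finset.univ.erase 1 := Finset.eq_of_subset_of_card_le
    (fun x hx => by
      obtain ⟨i, -, rfl⟩ := Finset.mem_image.1 hx
      exact Finset.mem_erase.2 ⟨fun a => u1 (by simpa [f] using congrArg Subtype.val a),
        Finset.mem_univ _⟩)
    (by
      rw [Finset.card_image_of_injective _ hi, Finset.card_erase_of_mem (Finset.mem_univ _),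
        Finset.card_univ, ← Nat.card_eq_fintype_card, hU]
      simp)
  obtain ⟨i, -, h⟩ := Finset.mem_image.1 (h1.ge (Finset.mem_erase.2
    ⟨fun a => v1 (congrArg Subtype.val a), Finset.mem_univ (⟨v, hv⟩ : U)⟩))
  exact ⟨i, i.2, (congrArg Subtype.val h).symm⟩

theorem exists_U [Finite G] {K : Subgroup G} (he : e ^ 7 = 1) (hn : e ∈ 𝐍[K])
    (hc : ∀ k ∈ K, ∀ k' ∈ K, Commute k (e * k' * e⁻¹ * k'⁻¹)) (hs : ∀ k ∈ K, Commute e (k * k)) :
    ∃ U : Subgroup G, (∀ u, u ∈ U ↔ ∃ k ∈ K, e * k * e⁻¹ * k⁻¹ = u) ∧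
      Nat.card U = (centralizer {e}).relIndex K ∧ U ≤ K ∧ (∀ u ∈ U, u * u = 1) ∧ e ∈ 𝐍[U] ∧
      ∀ u ∈ U, e * u * e⁻¹ = u → u = 1 := by
  let φ : K →* G := MonoidHom.mk' (fun k => e * k * e⁻¹ * (k : G)⁻¹) fun a b => by
    have := (hc a a.2 b b.2).eq
    calc e * (a * b : G) * e⁻¹ * (a * b : G)⁻¹
        = e * a * e⁻¹ * (a : G)⁻¹ * (a * (e * b * e⁻¹ * (b : G)⁻¹)) * (a : G)⁻¹ := by group
      _ = _ := by rw [this]; group
  have hm : ∀ u, u ∈ φ.range ↔ ∃ k ∈ K, e * k * e⁻¹ * k⁻¹ = u := fun u =>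
    ⟨fun ⟨k, h⟩ => ⟨k, k.2, h⟩, fun ⟨k, hk, h⟩ => ⟨⟨k, hk⟩, h⟩⟩
  have cj : ∀ k ∈ K, e * k * e⁻¹ ∈ K := fun k hk => (mem_normalizer_iff.1 hn k).1 hk
  have sq : ∀ u ∈ φ.range, u * u = 1 := by
    rintro _ ⟨k, rfl⟩
    rw [← map_mul]
    change e * (k * k : G) * e⁻¹ * (k * k : G)⁻¹ = 1
    rw [(hs k k.2).eq]; group
  refine ⟨φ.range, hm, ?_, ?_, sq, mem_normalizer_fintype ?_, ?_⟩
  · rw [← index_ker, relIndex]
    congr 1
    ext k
    rw [MonoidHom.mem_ker, mem_subgroupOf, mem_centralizer_singleton_iff]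
    change e * k * e⁻¹ * (k : G)⁻¹ = 1 ↔ _
    rw [mul_inv_eq_one, mul_inv_eq_iff_eq_mul, eq_comm]
  · rintro _ ⟨k, rfl⟩
    exact mul_mem (cj k k.2) (inv_mem k.2)
  · rintro _ ⟨k, rfl⟩
    exact (hm _).2 ⟨_, cj k k.2, by change _ = e * (e * k * e⁻¹ * (k : G)⁻¹) * e⁻¹; group⟩
  · rintro _ ⟨k, rfl⟩ h
    rw [← pow_one (φ k), show 1 = Nat.gcd 7 2 from rfl]
    exact pow_gcd_eq_one.2 ⟨pow7_of_fix he (mul_inv_eq_iff_eq_mul.1 h),
      (pow_two _).trans (sq _ ⟨k, rfl⟩)⟩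

theorem beta7 {H : Type*} [Group H] (b : ℕ → H) (h0 : b 0 = 1) (per : ∀ k, b (k + 7) = b k)
    (h1 : b 6 = b 1) (h2 : b 5 = b 2) (h3 : b 4 = b 3) (sq : b 3 * b 3 = 1) {j : ℕ} (hj : j < 7)
    (h : ∀ k, b k * b (k + 1) = b (j + k)) : ∀ k < 7, b k = 1 := by
  have p0 : b 7 = b 0 := per 0
  have p1 : b 8 = b 1 := per 1
  have p2 : b 9 = b 2 := per 2
  have p3 : b 10 = b 3 := per 3
  have : b 1 = 1 ∧ b 2 = 1 ∧ b 3 = 1 := by
    have e0 := h 0
    have e1 := h 1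
    have e2 := h 2
    have e3 := h 3
    have e5 := h 5
    clear h per
    interval_cases j <;>
      simp only [Nat.reduceAdd, h0, h1, h2, h3, p0, p1, p2, p3, sq, one_mul] at e0 e1 e2 e3 e5 <;>
      clear h0 h1 h2 h3 p0 p1 p2 p3 <;> generalize b 1 = p at * <;> generalize b 2 = q at * <;>
      generalize b 3 = r at * <;> subst_vars <;> simp_all
  intro k hk
  interval_cases k <;> simp only [h0, h1, h2, h3, this]

theorem comm7 {K W : Subgroup G} (he : e ^ 7 = 1) (hn : e ∈ 𝐍[K])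
    (hc : ∀ w ∈ W, ∀ k ∈ K, Commute w k) (hs : ∀ k ∈ K, k * k ∈ W)
    (hw : ∀ w ∈ W, Commute e w) {a : G} (ha : a ∈ K) {j : ℕ} (hj : j < 7)
    (h : a * (e * a * e⁻¹) * (e ^ j * a * (e ^ j)⁻¹)⁻¹ ∈ W) {i : ℕ} (hi : i < 7) :
    Commute a (e ^ i * a * (e ^ i)⁻¹) := by
  let x : ℕ → G := fun i => e ^ i * a * (e ^ i)⁻¹
  let b : ℕ → G := fun i => a * x i * a⁻¹ * (x i)⁻¹
  have xm : ∀ i, x i ∈ K := conj_pow_mem hn ha
  have bm : ∀ i, b i ∈ W := fun i => comm_mem_of_sq hs ha (xm i)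
  have cj : ∀ i, a * x i * a⁻¹ = b i * x i := fun i => by simp [b]
  have sq : ∀ i, b i * b i = 1 := fun i => by
    have h1 : a * (a * x i * a⁻¹) * a⁻¹ = x i := by
      rw [show a * (a * x i * a⁻¹) * a⁻¹ = a * a * x i * (a * a)⁻¹ by simp [mul_assoc],
        (hc _ (hs a ha) _ (xm i)).eq, mul_inv_cancel_right]
    rw [cj, ← mul_assoc, ← (hc _ (bm i) a ha).eq, mul_assoc, mul_assoc, ← mul_assoc a, cj,
      ← mul_assoc] at h1
    exact mul_eq_right.1 h1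
  have fx : ∀ w ∈ W, ∀ k : ℕ, e ^ k * w * (e ^ k)⁻¹ = w := fun w h k =>
    mul_inv_eq_iff_eq_mul.2 ((hw w h).pow_left k).eq
  have sh : ∀ i k, e ^ k * x i * (e ^ k)⁻¹ = x (i + k) := fun i k => by
    simp only [x, add_comm i k, pow_add]; group
  have x7 : ∀ k, x (k + 7) = x k := fun k => by simp only [x, pow_add, he, mul_one]
  have x0 : x 0 = a := by simp [x]
  have sy : ∀ i k, i + k = 7 → b i = b k := fun i k hk => by
    rw [← fx _ (bm i) k, ← inv_eq_of_mul_eq_one_right (sq k)]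
    have : e ^ k * b i * (e ^ k)⁻¹ = x k * (e ^ k * x i * (e ^ k)⁻¹) * (x k)⁻¹ *
      (e ^ k * x i * (e ^ k)⁻¹)⁻¹ := by simp only [b, x]; group
    rw [this, sh, hk, show x 7 = a from (x7 0).trans x0]
    simp only [b]; group
  have := beta7 b (by simp [b, x0]) (fun k => by simp only [b, x7]) (sy _ _ rfl) (sy _ _ rfl)
    (sy _ _ rfl) (sq 3) hj (fun k => by
      have h1 : x k * x (k + 1) = a * (e * a * e⁻¹) * (x j)⁻¹ * x (j + k) := by
        rw [← fx _ h k, ← sh j k]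
        simp only [x, pow_succ]; group
      have h2 : a * (x k * x (k + 1)) * a⁻¹ = b k * b (k + 1) * (x k * x (k + 1)) := by
        rw [show a * (x k * x (k + 1)) * a⁻¹ = a * x k * a⁻¹ * (a * x (k + 1) * a⁻¹) by group, cj, cj,
          mul_assoc, ← mul_assoc (x k), ← (hc _ (bm (k + 1)) _ (xm k)).eq]
        simp only [mul_assoc]
      have h3 : a * (x k * x (k + 1)) * a⁻¹ = b (j + k) * (x k * x (k + 1)) := by
        rw [h1]
        change a * (e * a * e⁻¹) * (x j)⁻¹ ∈ W at h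
        generalize a * (e * a * e⁻¹) * (x j)⁻¹ = w at h
        rw [← mul_assoc, ← (hc w h a ha).eq, mul_assoc, mul_assoc, ← mul_assoc a, cj, ← mul_assoc,
          ← mul_assoc, (hc w h _ (show b (j + k) ∈ K from mul_mem (mul_mem (mul_mem ha (xm _))
            (inv_mem ha)) (inv_mem (xm _)))).eq]
        simp only [x, mul_assoc]
      exact mul_right_cancel (h2.symm.trans h3)) i hi
  exact mul_inv_eq_iff_eq_mul.1 (mul_inv_eq_one.1 this)

theorem two_mul_card_le [Finite G] {A B : Subgroup G} (h : A ≤ B) {x : G} (hx : x ∈ B)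
    (hA : x ∉ A) : 2 * Nat.card A ≤ Nat.card B := by
  have h1 := card_lt_of_not_mem h hx hA
  obtain ⟨k, hk⟩ := card_dvd_of_le h
  rcases k with _ | _ | k
  · omega
  · omega
  · nlinarith

theorem cyc_of_sq [Finite G] {C : Subgroup G} (h2 : IsPGroup 2 C)
    (h : Nat.card C ≤ 2 * Nat.card (Sq C)) : ∃ c ∈ C, C = zpowers c := by
  obtain ⟨c, hc, h1⟩ : ∃ c ∈ C, C ≤ zpowers c ⊔ Sq C := by
    by_cases a : C ≤ Sq C
    · exact ⟨1, one_mem _, a.trans le_sup_right⟩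
    · obtain ⟨c, hc, h1⟩ := SetLike.not_le_iff_exists.1 a
      refine ⟨c, hc, (eq_of_le_of_card_ge (sup_le (zpowers_le.2 hc) (Sq_le C)) (h.trans ?_)).ge⟩
      exact two_mul_card_le le_sup_right (mem_sup_left (mem_zpowers c)) h1
  have := frattini_nongenerating (K := zpowers (⟨c, hc⟩ : C)) (map_injective C.subtype_injective (by
    rw [Subgroup.map_sup, MonoidHom.map_zpowers, ← MonoidHom.range_eq_map, range_subtype]
    exact le_antisymm (sup_le (zpowers_le.2 hc) (map_subtype_le _))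
      (h1.trans (sup_le_sup_left (Sq_le_frattini h2) _))))
  refine ⟨c, hc, ?_⟩
  have := congrArg (Subgroup.map C.subtype) this
  rwa [MonoidHom.map_zpowers, ← MonoidHom.range_eq_map, range_subtype, eq_comm] at this

/-- `R = U × ⟨c⟩` with `U` elementary of order eight. -/
structure Sp (R : Subgroup G) (e : G) (U : Subgroup G) (c : G) : Prop where
  le : U ≤ R
  mem : c ∈ R
  card : Nat.card U = 8
  sq : ∀ u ∈ U, u * u = 1
  ec : Commute e c
  cu : ∀ u ∈ U, Commute c u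
  dec : ∀ r ∈ R, ∃ u ∈ U, ∃ i : ℕ, r = u * c ^ i
  norm : e ∈ 𝐍[U]
  fpf : ∀ u ∈ U, e * u * e⁻¹ = u → u = 1

theorem exists_sp [Finite G] {R : Subgroup G} [hR : R.Normal] (h2 : IsPGroup 2 R)
    (hr : SectionalPRankLE 2 4 G) (he : e ^ 7 = 1) (h8 : (centralizer {e}).relIndex R ≤ 8)
    (hne : ¬ R ≤ centralizer {e}) : ∃ U c, Sp R e U c := by
  have := Fact.mk (by norm_num : Nat.Prime 7)
  obtain ⟨W, hV⟩ : ∃ W, Sq R = W := ⟨_, rfl⟩
  have hN : W.Normal := hV ▸ inferInstance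
  have hW : W ≤ R := hV ▸ Sq_le R
  have hs : ∀ x ∈ R, x * x ∈ W := fun x hx => hV ▸ sq_mem_Sq hx
  have hn : e ∈ 𝐍[R] := le_normalizer_of_normal (mem_top e)
  have hne' : ∃ r ∈ R, e * r * e⁻¹ * r⁻¹ ∉ W := by
    by_contra a
    push Not at a
    obtain ⟨j, hj⟩ := PLocal.exists_pow_mem_centralizer_of_frattini h2 hn
      fun k hk => Sq_le_frattini h2 (hV.ge (a k hk))
    exact hne fun r hr => mem_centralizer_singleton_iff.2 (mul_inv_eq_iff_eq_mul.1 (fix_of_pow he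
      (i := 2 ^ j) (fun d => absurd (this.1.dvd_of_dvd_pow d) (by norm_num))
      (mul_inv_eq_iff_eq_mul.2 (hj r hr).symm))).symm
  have f7 := fix7 hW h2 (bound hr hW hs) (he ▸ one_mem _) hn hne'
  have hC := relIndex_mul_card (inf_le_left : R ⊓ centralizer {e} ≤ R)
  rw [inf_relIndex_left] at hC
  have pC : 0 < Nat.card ↥(R ⊓ centralizer {e}) := Nat.card_pos
  have e1 : R ⊓ centralizer {e} = fixMod R W e := eq_of_le_of_card_ge
    (fun r hr => mem_fixMod.2 ⟨hr.1, by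
      rw [← mem_centralizer_singleton_iff.1 hr.2]; simp⟩) (by rcases f7 with h | h <;> nlinarith)
  rw [← e1] at f7
  have i8 : (centralizer {e}).relIndex R = 8 := by rcases f7 with h | h <;> nlinarith
  have fx : ∀ r ∈ R, e * r * e⁻¹ * r⁻¹ ∈ W → Commute e r := fun r hr h =>
    (mem_centralizer_singleton_iff.1 (e1.ge (mem_fixMod.2 ⟨hr, h⟩)).2).symm
  have hw : ∀ w ∈ W, Commute e w := fun w h =>
    fx w (hW h) (mul_mem (hN.conj_mem w h e) (inv_mem h))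
  have cW : ∀ r : G, ∀ w ∈ W, Commute w (e * r * e⁻¹ * r⁻¹) := fun r w h => by
    have h1 := (hw _ (hN.conj_mem w h r⁻¹)).eq
    have h3 := (hw w h).eq
    calc w * (e * r * e⁻¹ * r⁻¹) = e * r * (r⁻¹ * w * r⁻¹⁻¹ * e⁻¹) * r⁻¹ := by
          rw [← mul_assoc, ← mul_assoc, ← mul_assoc, ← h3]; group
      _ = e * r * (e⁻¹ * (e * (r⁻¹ * w * r⁻¹⁻¹)) * e⁻¹) * r⁻¹ := by group
      _ = _ := by rw [h1]; group
  have pm : ∀ r ∈ R, e * r * e⁻¹ * r⁻¹ ∈ R := fun r h => mul_mem (hR.conj_mem r h e) (inv_mem h)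
  have nf : ∀ r ∈ R, Commute e (e * r * e⁻¹ * r⁻¹) → e * r * e⁻¹ * r⁻¹ = 1 := fun r h a =>
    eq_one_of_seven h2 (pm r h) (pow7_of_fix he a)
  have cc : ∀ r ∈ R, ∀ s ∈ R, Commute (e * r * e⁻¹ * r⁻¹) (e * s * e⁻¹ * s⁻¹) := by
    let π := QuotientGroup.mk' W
    have s2 : ∀ k ∈ R.map π, k * k = 1 := by
      rintro _ ⟨k, hk, rfl⟩
      rw [← map_mul]
      exact (QuotientGroup.eq_one_iff _).2 (hs k hk)
    have he' : π e ^ 7 = 1 := by rw [← map_pow, he, map_one]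
    have nb : π e ∈ 𝐍[R.map π] := le_normalizer_map π (mem_map_of_mem π hn)
    obtain ⟨V, m, cV, -, sV, nV, fV⟩ := exists_U (K := R.map π) he' nb
      (fun k hk k' hk' => comm_of_sq s2 hk (mul_mem ((mem_normalizer_iff.1 nb k').1 hk') (inv_mem hk')))
      fun k hk => by rw [s2 k hk]; exact Commute.one_right _
    rw [← relIndex_comap, ← inf_relIndex_left, show R ⊓ _ = fixMod R W e from rfl, ← e1,
      inf_relIndex_left, i8] at cV
    have mV : ∀ r ∈ R, π (e * r * e⁻¹ * r⁻¹) ∈ V := fun r h =>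
      (m _).2 ⟨_, mem_map_of_mem π h, by simp only [map_mul, map_inv]⟩
    have n1 : ∀ r ∈ R, e * r * e⁻¹ * r⁻¹ ≠ 1 → π (e * r * e⁻¹ * r⁻¹) ≠ 1 := fun r h a b =>
      a (nf r h (hw _ ((QuotientGroup.eq_one_iff _).1 b)))
    intro r hr s hs'
    by_cases a1 : e * r * e⁻¹ * r⁻¹ = 1
    · rw [a1]; exact Commute.one_left _
    by_cases b1 : e * s * e⁻¹ * s⁻¹ = 1
    · rw [b1]; exact Commute.one_right _
    have aV := mV r hr
    have a2 := n1 r hr a1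
    have aK : e * r * e⁻¹ * r⁻¹ ∈ R ⊓ 𝐂[W] := ⟨pm r hr, fun w h => (cW r w h).eq⟩
    generalize e * r * e⁻¹ * r⁻¹ = a at *
    have lf : ∀ (b : G) (i : ℕ), π b = π e ^ i * π a * (π e ^ i)⁻¹ →
        b * (e ^ i * a * (e ^ i)⁻¹)⁻¹ ∈ W := fun b i h => (QuotientGroup.eq_one_iff _).1 (by
      change π _ = 1
      simp only [map_mul, map_inv, map_pow, h, mul_inv_cancel])
    have eV := (mem_normalizer_iff.1 nV _).1 aV
    obtain ⟨j, hj, h1⟩ := trans8 cV he' nV fV aV (mul_mem aV eV) a2 fun d =>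
      a2 (fV _ aV (mul_left_cancel (d.trans (sV _ aV).symm)))
    obtain ⟨i, hi, h3⟩ := trans8 cV he' nV fV aV (mV s hs') a2 (n1 s hs' b1)
    have h4 := comm7 (K := R ⊓ 𝐂[W]) (W := W) he (le_normalizer_of_normal (mem_top e))
      (fun w h k hk => hk.2 w h) (fun k hk => hs k hk.1) hw aK hj
      (lf _ j (by simpa only [map_mul, map_inv] using h1)) hi
    have h5 : Commute a _ := (aK.2 _ (lf _ i h3)).symm
    exact inv_mul_cancel_right (e * s * e⁻¹ * s⁻¹) _ ▸ h5.mul_right h4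
  let K : Subgroup G := R ⊓ centralizer {y | ∃ r ∈ R, e * r * e⁻¹ * r⁻¹ = y}
  have mK : ∀ k, k ∈ K ↔ k ∈ R ∧ ∀ r ∈ R, Commute k (e * r * e⁻¹ * r⁻¹) := fun k =>
    and_congr_right fun _ => ⟨fun h r hr => (h _ ⟨r, hr, rfl⟩).symm, by
      rintro h _ ⟨r, hr, rfl⟩; exact (h r hr).symm⟩
  obtain ⟨U, m, cU, lU, sU, nU, fU⟩ := exists_U (K := K) he (mem_normalizer_fintype fun k hk =>
    (mK _).2 ⟨hR.conj_mem k hk.1 e, fun r hr => by
      have := (((mK k).1 hk).2 _ (hR.conj_mem r hr e⁻¹)).map (MulAut.conj e)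
      simpa [mul_assoc] using this⟩)
    (fun k hk k' hk' => ((mK k).1 hk).2 k' hk'.1) fun k hk => hw _ (hs k hk.1)
  have c8 : Nat.card U = 8 := by
    have h1 : Nat.card U ≤ 8 := by
      rw [cU, ← i8]
      exact relIndex_le_of_le_right inf_le_left (by omega)
    have h3 := card_modEq he nU
    rw [show U ⊓ centralizer {e} = ⊥ from eq_bot_iff.2 fun u hu => fU u hu.1
      (mul_inv_eq_iff_eq_mul.2 (mem_centralizer_singleton_iff.1 hu.2).symm), card_bot] at h3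
    obtain ⟨r, hr, h4⟩ := hne'
    have h5 : Nat.card U ≠ 1 := fun a => h4 (by
      have := (card_eq_one.1 a).le ((m _).2 ⟨_, (mK _).2 ⟨pm r hr, cc r hr⟩, rfl⟩)
      rw [nf r hr (mul_inv_eq_iff_eq_mul.1 (mul_inv_eq_one.1 this))]
      exact one_mem _)
    unfold Nat.ModEq at h3
    omega
  have UR : U ≤ R := lU.trans inf_le_left
  have cu : ∀ c ∈ R ⊓ centralizer {e}, ∀ u ∈ U, Commute c u := fun c hc u hu => by
    obtain ⟨k, hk, rfl⟩ := (m u).1 hu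
    have h1 := (hw _ (comm_mem_of_sq hs hc.1 hk.1)).eq
    have h3 : Commute c e := mem_centralizer_singleton_iff.1 hc.2
    have h4 := (cW k _ (comm_mem_of_sq hs hc.1 hk.1)).eq
    refine mul_inv_eq_iff_eq_mul.1 ?_
    calc c * (e * k * e⁻¹ * k⁻¹) * c⁻¹ = c * e * k * c⁻¹ * (c * e⁻¹) * k⁻¹ * c⁻¹ := by group
      _ = e * (c * k * c⁻¹ * k⁻¹) * (k * e⁻¹ * k⁻¹) * (c * k * c⁻¹ * k⁻¹)⁻¹ := by
        rw [h3.eq, h3.inv_right.eq]; group
      _ = c * k * c⁻¹ * k⁻¹ * (e * k * e⁻¹ * k⁻¹) * (c * k * c⁻¹ * k⁻¹)⁻¹ := by rw [h1]; group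
      _ = _ := by rw [h4, mul_inv_cancel_right]
  have dec : ∀ r ∈ R, ∃ u ∈ U, ∃ c ∈ R ⊓ centralizer {e}, r = u * c := by
    let φ : U × ↥(R ⊓ centralizer {e}) → R := fun p => ⟨p.1 * p.2, mul_mem (UR p.1.2) p.2.2.1⟩
    have hi : Function.Injective φ := by
      rintro ⟨u, c⟩ ⟨v, d⟩ h
      have h : (u : G) * c = v * d := congrArg Subtype.val h
      have h1 : (v : G)⁻¹ * u = d * (c : G)⁻¹ := by
        rw [inv_mul_eq_iff_eq_mul, ← mul_assoc, ← h, mul_inv_cancel_right]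
      have h3 : (v : G)⁻¹ * u = 1 := fU _ (mul_mem (inv_mem v.2) u.2) (mul_inv_eq_iff_eq_mul.2
        (mem_centralizer_singleton_iff.1 (h1 ▸ mul_mem d.2.2 (inv_mem c.2.2))).symm)
      exact Prod.ext (Subtype.ext (inv_mul_eq_one.1 h3).symm)
        (Subtype.ext (mul_inv_eq_one.1 (h1.symm.trans h3)).symm)
    have hb := hi.bijective_of_nat_card_le (by rw [Nat.card_prod, c8, ← hC, i8])
    intro r hr
    obtain ⟨⟨u, c⟩, h⟩ := hb.2 ⟨r, hr⟩
    exact ⟨u, u.2, c, c.2, (congrArg Subtype.val h).symm⟩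
  obtain ⟨c, hc, h⟩ := cyc_of_sq (h2.to_le (inf_le_left : R ⊓ centralizer {e} ≤ R)) (by
    have : W ≤ Sq (R ⊓ centralizer {e}) := hV ▸ Sq_le_iff.2 fun r hr => by
      obtain ⟨u, hu, c, hc, rfl⟩ := dec r hr
      rw [mul_assoc, ← mul_assoc c, (cu c hc u hu).eq, ← mul_assoc, ← mul_assoc, sU u hu, one_mul]
      exact sq_mem_Sq hc
    have := card_le_of_le this
    omega)
  refine ⟨U, c, UR, hc.1, c8, sU, (mem_centralizer_singleton_iff.1 hc.2).symm, cu c hc,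
    fun r hr => ?_, nU, fU⟩
  obtain ⟨u, hu, d, hd, rfl⟩ := dec r hr
  obtain ⟨i, rfl⟩ := mem_powers_iff_mem_zpowers.2 (h.le hd)
  exact ⟨u, hu, i, rfl⟩

end Cfsg.Agent.GHE
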