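import Mathlib
import Cfsg.Agent.GHE.Seven

/-! Extensions of 2-groups by the simple group of order 168: tools. -/

set_option autoImplicit false
set_option linter.unusedSectionVars false

namespace Cfsg.Agent.GHE
open Cfsg Subgroup Cfsg.Agent.PLocal.Amb Matrix

variable {G : Type*} [Group G]

/-- `A ∪ A x`. -/
def ext2 (A : Subgroup G) {x : G} (hn : x ∈ 𝐍[A]) (h2 : x * x ∈ A) : Subgroup G where
  carrier := {h | h ∈ A ∨ h * x⁻¹ ∈ A}
  one_mem' := Or.inl (one_mem _)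
  mul_mem' := by
    have cj : ∀ a ∈ A, x * a * x⁻¹ ∈ A := fun a ha => (mem_normalizer_iff.1 hn a).1 ha
    rintro a b (ha | ha) (hb | hb)
    · exact Or.inl (mul_mem ha hb)
    · exact Or.inr (by simpa only [mul_assoc] using mul_mem ha hb)
    · exact Or.inr (by simpa [mul_assoc] using mul_mem ha (cj b hb))
    · exact Or.inl (by simpa [mul_assoc] using mul_mem (mul_mem ha (cj _ hb)) h2)
  inv_mem' := by
    rintro a (ha | ha)
    · exact Or.inl (inv_mem ha)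
    · refine Or.inr ((mem_normalizer_iff.1 hn _).2 ?_)
      simpa [mul_assoc] using mul_mem (inv_mem ha) (inv_mem h2)

theorem mem_ext2 {A : Subgroup G} {x : G} {hn : x ∈ 𝐍[A]} {h2 : x * x ∈ A} {h : G} :
    h ∈ ext2 A hn h2 ↔ h ∈ A ∨ ∃ a ∈ A, h = a * x :=
  or_congr_right ⟨fun e => ⟨_, e, by simp⟩, fun ⟨a, ha, e⟩ => by simpa [e] using ha⟩

theorem card_ext2 [Finite G] {A : Subgroup G} {x : G} (hn : x ∈ 𝐍[A]) (h2 : x * x ∈ A)
    (hx : x ∉ A) : 2 * Nat.card A ≤ Nat.card (ext2 A hn h2) :=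
  two_mul_card_le (fun _ => Or.inl) (mem_ext2.2 (Or.inr ⟨1, one_mem _, by simp⟩)) hx

theorem uno [Finite G] (hr : SectionalPRankLE 2 4 G) {A B : Subgroup G} (hBA : B ≤ A) {x : G}
    (xA : x ∈ 𝐍[A]) (h0 : ∀ a ∈ A, a * a ∈ B) (h1 : ∀ a ∈ A, a * x * (a * x) ∈ B) (n0 : x ∉ A) :
    Nat.card A ≤ 8 * Nat.card B := by
  have h2 : x * x ∈ A := hBA (by simpa using h1 1 (one_mem _))
  have h3 := card_ext2 xA h2 n0
  have := bound hr (N := B) (H := ext2 A xA h2) (fun b hb => Or.inl (hBA hb)) fun h hh => by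
    rcases mem_ext2.1 hh with e | ⟨a, ha, rfl⟩
    exacts [h0 h e, h1 a ha]
  omega

theorem tri [Finite G] (hr : SectionalPRankLE 2 4 G) {A B : Subgroup G} (hBA : B ≤ A) {x d : G}
    (dA : d ∈ 𝐍[A]) (dB : d ∈ 𝐍[B]) (xA : x ∈ 𝐍[A]) (h0 : ∀ a ∈ A, a * a ∈ B)
    (h1 : ∀ a ∈ A, a * x * (a * x) ∈ B)
    (hw : x * (d * x * d⁻¹) * (d * (d * x * d⁻¹) * d⁻¹) ∈ A) (n0 : x ∉ A) :
    Nat.card A ≤ 4 * Nat.card B := by
  have st : ∀ {x}, x ∈ 𝐍[A] ∧ (∀ a ∈ A, a * x * (a * x) ∈ B) ∧ x ∉ A → d * x * d⁻¹ ∈ 𝐍[A] ∧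
      (∀ a ∈ A, a * (d * x * d⁻¹) * (a * (d * x * d⁻¹)) ∈ B) ∧ d * x * d⁻¹ ∉ A :=
    fun ⟨a, b, c⟩ => ⟨mul_mem (mul_mem dA a) (inv_mem dA), fun u hu => by
      simpa [mul_assoc] using (mem_normalizer_iff.1 dB _).1
        (b _ ((mem_normalizer_iff''.1 dA u).1 hu)), fun e => c ((mem_normalizer_iff.1 dA _).2 e)⟩
  obtain ⟨yA, h2, n1⟩ := st ⟨xA, h1, n0⟩
  obtain ⟨zA, h3, n2⟩ := st ⟨yA, h2, n1⟩
  generalize d * x * d⁻¹ = y at *
  generalize d * y * d⁻¹ = z at *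
  have xx : x * x ∈ A := hBA (by simpa using h1 1 (one_mem _))
  have yy : y * y ∈ A := hBA (by simpa using h2 1 (one_mem _))
  have zz : z * z ∈ A := hBA (by simpa using h3 1 (one_mem _))
  have h4 : ∀ a ∈ A, a * x * y * (a * x * y) ∈ B := fun a ha => by
    simpa [mul_assoc] using h3 _ (mul_mem (mul_mem ha hw) (inv_mem zz))
  have c1 := card_ext2 xA xx n0
  have c2 := uno hr (A := ext2 A xA xx) (B := B) (x := y) (fun b hb => Or.inl (hBA hb))
    (mem_normalizer_fintype fun h hh => by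
      rcases mem_ext2.1 hh with e | ⟨a, ha, rfl⟩
      · exact Or.inl ((mem_normalizer_iff.1 yA _).1 e)
      · have := mul_mem (mul_mem ((mem_normalizer_iff.1 yA _).1 ha) ((mem_normalizer_iff''.1 xA _).1
          (mul_mem (hBA (h4 1 (one_mem _))) (inv_mem yy)))) (inv_mem xx)
        exact Or.inr (by simpa [mul_assoc] using this))
    (fun h hh => by
      rcases mem_ext2.1 hh with e | ⟨a, ha, rfl⟩
      exacts [h0 h e, h1 a ha])
    (fun h hh => by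
      rcases mem_ext2.1 hh with e | ⟨a, ha, rfl⟩
      exacts [h2 h e, h4 a ha])
    (fun hh => by
      rcases mem_ext2.1 hh with e | ⟨a, ha, rfl⟩
      · exact n1 e
      · refine n2 ?_
        simpa [mul_assoc] using mul_mem (inv_mem (mul_mem ((mem_normalizer_iff.1 xA _).1 ha) xx)) hw)
  omega

theorem index_cen (a : G) : (centralizer {a}).index = {b | IsConj a b}.ncard := by
  have : centralizer {a} = (MulAction.stabilizer (ConjAct G) a).comap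
    (ConjAct.toConjAct (G := G)).toMonoidHom := centralizer_eq_comap_stabilizer a
  rw [this, index_comap_of_surjective _ ConjAct.toConjAct.surjective, MulAction.index_stabilizer]
  congr 1
  ext b
  rw [ConjAct.mem_orbit_conjAct, isConj_comm]
  rfl

abbrev V3 := Fin 3 → ZMod 2
abbrev M3 := Matrix (Fin 3) (Fin 3) (ZMod 2)

variable {S : Type*} [Group S]

/-- A representation with the same kernel as `π` and onto the general linear group. -/
structure Rep (π : G →* S) (ρ : G →* M3) : Prop where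
  ker : ∀ g, ρ g = 1 ↔ π g = 1
  onto : ∀ m m' : M3, m * m' = 1 → ∃ g, ρ g = m

theorem rep_of [Finite G] [IsSimpleGroup S] (hS : Nat.card S = 168) {π : G →* S}
    (hs : Function.Surjective π) {ρ : G →* M3} (hk : ∀ r, π r = 1 → ρ r = 1) {e : G}
    (he : ρ e ≠ 1) : Rep π ρ := by
  have h1 := (ker_or_top hs (M := ρ.ker) hk).resolve_right fun a => he (a.ge trivial)
  have h2 : ρ.toHomUnits.ker = π.ker := by
    rw [← h1]; ext g; exact Units.ext_iff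
  have h3 : ρ.toHomUnits.range = ⊤ := eq_top_of_card_eq _ (by
    rw [← index_ker, h2, index_ker, MonoidHom.range_eq_top.2 hs, card_top, hS]
    exact ((card_GL_field (𝔽 := ZMod 2) 3).trans (by simp [Fin.prod_univ_three])).symm)
  refine ⟨fun g => ⟨fun a => h1.le a, hk g⟩, fun m m' h => ?_⟩
  obtain ⟨g, hg⟩ := h3.ge (mem_top ⟨m, m', h, mul_eq_one_comm.1 h⟩)
  exact ⟨g, congrArg Units.val hg⟩

def sM : M3 := !![1, 1, 0; 0, 1, 1; 0, 0, 1]
def dM : M3 := !![1, 0, 0; 0, 0, 1; 0, 1, 1]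
def u0 : V3 := ![1, 0, 0]

theorem m3_facts : sM * (sM * sM * sM) = 1 ∧ sM * sM ≠ 1 ∧ dM * (dM * dM) = 1 ∧
    sM * sM * (dM * (sM * sM) * (dM * dM)) * (dM * (dM * (sM * sM) * (dM * dM)) * (dM * dM)) = 1 ∧
    (∀ v : V3, sM *ᵥ v = v → v = 0 ∨ v = u0) ∧ dM *ᵥ u0 = u0 ∧ sM *ᵥ u0 = u0 ∧
    (∀ v : V3, (sM * sM) *ᵥ (dM *ᵥ v) = v → v = 0 ∨ v = u0) ∧
    (∀ v : V3, (sM * sM) *ᵥ v + -v = 0 ∨ (sM * sM) *ᵥ v + -v = u0) ∧
    ∀ v : V3, sM *ᵥ v = v → ∃ a, a + (sM * sM) *ᵥ a + v = 0 := by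
  refine ⟨?_, ?_, ?_, ?_, ?_, ?_, ?_, ?_, ?_, ?_⟩ <;> decide +kernel

theorem v3_fano : ∀ v w u : V3, u = 0 ∨ u = v ∨ u = w ∨ u = v + w ∨
    ∃ r f : V3, f ⬝ᵥ r = 0 ∧ f ⬝ᵥ v = 0 ∧ f ⬝ᵥ w = 0 ∧ u + (f ⬝ᵥ u) • r ≠ u := by
  decide +kernel

theorem v3_pair : ∀ p q : V3, p = 0 ∨ q = 0 ∨ p + q = 0 ∨
    ∃ r f : V3, f ⬝ᵥ r = 0 ∧ f ⬝ᵥ p = 0 ∧ q + (f ⬝ᵥ q) • r ≠ q ∧ q + (f ⬝ᵥ q) • r ≠ p + q := by
  decide +kernel

namespace Rep
variable {π : G →* S} {ρ : G →* M3} (h : Rep π ρ)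
include h

theorem transv {r f : V3} (e : f ⬝ᵥ r = 0) : ∃ g, ∀ v, ρ g *ᵥ v = v + (f ⬝ᵥ v) • r := by
  obtain ⟨g, hg⟩ := h.onto (1 + vecMulVec r f) (1 + vecMulVec r f) (by
    revert r f; decide +kernel)
  exact ⟨g, fun v => by rw [hg, add_mulVec, one_mulVec, vecMulVec_mulVec]; simp⟩

theorem ex_yd [Finite G] (hs : Function.Surjective π) (h2 : IsPGroup 2 π.ker) :
    ∃ y d, ρ y = sM ∧ ρ d = dM ∧ d ^ 3 = 1 ∧ π (y * y * (y * y)) = 1 ∧ π (y * y) ≠ 1 ∧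
      ∀ x, π x = π (y * y) → π (x * (d * x * d⁻¹) * (d * (d * x * d⁻¹) * d⁻¹)) = 1 := by
  obtain ⟨f1, f2, f3, f4, -⟩ := m3_facts
  obtain ⟨y, hy⟩ := h.onto _ _ f1
  obtain ⟨g, hg⟩ := h.onto _ _ f3
  obtain ⟨d, hd, d3⟩ := exists_lift_pow hs h2 Nat.prime_three (by norm_num) (s := π g) (by
    rw [← map_pow, ← h.ker, map_pow, hg, pow_succ', sq, f3])
  have eq : ∀ a b, π a = π b → ρ a = ρ b := fun a b e => by
    have := (h.ker (a * b⁻¹)).2 (by rw [map_mul, map_inv, e, mul_inv_cancel])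
    rw [← inv_mul_cancel_right a b, map_mul, this, one_mul]
  have hd' := (eq _ _ hd).trans hg
  have di : ρ d⁻¹ = dM * dM := by
    rw [inv_eq_of_mul_eq_one_right (by rw [← d3, pow_succ', sq] : d * (d * d) = 1), map_mul, hd']
  refine ⟨y, d, hy, hd', d3, (h.ker _).1 ?_, fun a => f2 ?_, fun x hx => (h.ker _).1 ?_⟩
  · simp only [map_mul, hy]; simpa only [mul_assoc] using f1
  · simpa only [map_mul, hy] using (h.ker _).2 a
  · simp only [map_mul, eq _ _ hx, hy, hd', di, f4]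

theorem fano {N M E : Subgroup G} [hM : M.Normal] [hE : E.Normal] {c : G → V3} (co : Co N ⊥ c ρ)
    (sq : ∀ m ∈ M, m * m ∈ N) (inj : ∀ m ∈ M, ∀ m' ∈ M, m * m = m' * m' ↔ m * m'⁻¹ ∈ E) :
    ∀ m ∈ M, ∀ m' ∈ M, m * m' = m' * m := by
  intro m hm k hk
  have ce : ∀ a ∈ M, ∀ b ∈ M, c (a * a) = c (b * b) ↔ a * b⁻¹ ∈ E := fun a ha b hb => by
    rw [co.eq_iff (sq a ha) (sq b hb), mem_bot, mul_inv_eq_one, inj a ha b hb]
  have c0 : ∀ a ∈ M, c (a * a) = 0 ↔ a ∈ E := fun a ha => by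
    simpa [co.c_one] using ce a ha 1 (one_mem _)
  have fx : ∀ g, ∀ a ∈ M, ρ g *ᵥ c (a * a) = c (a * a) ↔ g * a * g⁻¹ * a⁻¹ ∈ E := fun g a ha => by
    rw [← ce _ (hM.conj_mem a ha g) a ha, ← co.conj g _ (sq a ha)]
    simp [mul_assoc]
  have mk := mul_mem hm hk
  have : c (m * k * (m * k)) = c (m * m) + c (k * k) := by
    rcases v3_fano (c (m * m)) (c (k * k)) (c (m * k * (m * k))) with a | a | a | a | ⟨r, f, a, b, d, e⟩
    · rw [a, (ce m hm k⁻¹ (inv_mem hk)).2 (by simpa using (c0 _ mk).1 a), ← _root_.mul_inv_rev,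
        co.inv (sq k hk), neg_add_cancel]
    · rw [a, (c0 k hk).2 (by simpa [mul_assoc] using hE.conj_mem _ ((ce _ mk _ hm).1 a) m⁻¹), add_zero]
    · rw [a, (c0 m hm).2 (by simpa using (ce _ mk _ hk).1 a), zero_add]
    · exact a
    · obtain ⟨g, hg⟩ := h.transv a
      refine absurd ?_ e
      rw [← hg, fx g _ mk]
      have := mul_mem ((fx g m hm).1 (by rw [hg, b]; simp))
        (hE.conj_mem _ ((fx g k hk).1 (by rw [hg, d]; simp)) m)
      simpa [mul_assoc] using this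
  rw [← co.mul _ (sq m hm) _ (sq k hk), co.eq_iff (sq _ mk) (mul_mem (sq m hm) (sq k hk)), mem_bot,
    mul_inv_eq_one] at this
  exact (mul_right_cancel (mul_left_cancel (a := m) (by simpa only [mul_assoc] using this) :
    k * m * k = m * k * k)).symm

end Rep

theorem Co.norm_pre [Finite G] {n m : ℕ} {R W : Subgroup G} [hR : R.Normal]
    {c : G → (Fin n → ZMod m)} {ρ : G →* Matrix (Fin n) (Fin n) (ZMod m)} (h : Co R W c ρ)
    {U : AddSubgroup (Fin n → ZMod m)} {g : G} (hg : ∀ v ∈ U, ρ g *ᵥ v ∈ U) : g ∈ 𝐍[h.pre U] :=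
  mem_normalizer_fintype fun x hx =>
    ⟨hR.conj_mem x hx.1 g, by rw [h.conj g x hx.1]; exact hg _ hx.2⟩

abbrev W3 := Fin 3 → ZMod 4
abbrev N3 := Matrix (Fin 3) (Fin 3) (ZMod 4)

def red : ZMod 4 →+* ZMod 2 := ZMod.castHom (by norm_num : 2 ∣ 4) (ZMod 2)

theorem exists_co4 [Finite G] {A N : Subgroup G} [A.Normal] {c : G → V3} {ρ : G →* M3}
    (co : Co N ⊥ c ρ) (cA : Nat.card A = 64) (ab : ∀ a ∈ A, ∀ b ∈ A, a * b = b * a)
    (sq : ∀ a ∈ A, a * a ∈ N) (su : ∀ n ∈ N, ∃ a ∈ A, a * a = n) :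
    ∃ (c : G → W3) (ρ : G →* N3), Co A ⊥ c ρ := by
  have h1 : ∀ i : Fin 3, ∃ a : A, c (a * a) = Pi.single i 1 := fun i => by
    obtain ⟨n, hn, e⟩ := co.surj (Pi.single i 1)
    obtain ⟨a, ha, rfl⟩ := su n hn
    exact ⟨⟨a, ha⟩, e⟩
  choose a ha using h1
  let _ : CommGroup A := { mul_comm := fun a b => Subtype.ext (ab _ a.2 _ b.2) }
  let q : A →* Multiplicative V3 := MonoidHom.mk' (fun x => Multiplicative.ofAdd (c (x * x)))
    fun x y => by
      rw [← ofAdd_add, ← co.mul _ (sq _ x.2) _ (sq _ y.2)]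
      exact congrArg (fun z : A => Multiplicative.ofAdd (c z)) (mul_mul_mul_comm x y x y)
  have h4 : ∀ x : A, x ^ 4 = 1 := fun x => Subtype.ext (mem_bot.1 ((co.zero _ (pow_mem x.2 4 |> fun _ =>
    by rw [show (4 : ℕ) = 2 * 2 from rfl, coe_pow, pow_mul, pow_two (x : G)]
       exact pow_mem (sq _ x.2) 2)).1 (by
    rw [show (4 : ℕ) = 2 * 2 from rfl, coe_pow, pow_mul, pow_two (x : G), co.pow (sq _ x.2)]
    exact ZModModule.char_nsmul_eq_zero 2 _)))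
  let ψ : Multiplicative W3 →* A := MonoidHom.mk' (fun v => ∏ i, a i ^ (v.toAdd i).val) fun v w => by
    rw [← Finset.prod_mul_distrib]
    refine Finset.prod_congr rfl fun i _ => ?_
    rw [toAdd_mul, Pi.add_apply, ZMod.val_add, ← pow_eq_pow_mod _ (h4 _), pow_add]
  have qψ : ∀ v : W3, q (ψ (Multiplicative.ofAdd v)) = Multiplicative.ofAdd (red ∘ v) := fun v => by
    change q (∏ i, a i ^ (v i).val) = _
    rw [map_prod, Fin.prod_univ_three, map_pow, map_pow, map_pow]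
    change Multiplicative.ofAdd ((v 0).val • c _ + (v 1).val • c _ + (v 2).val • c _) = _
    rw [ha, ha, ha]
    revert v
    decide +kernel
  have hi : Function.Injective ψ := by
    rw [injective_iff_map_eq_one]
    intro v hv
    have h5 := qψ v.toAdd
    rw [ofAdd_toAdd, hv, map_one] at h5
    obtain ⟨w, hw, h6⟩ := (by decide +kernel : ∀ v : W3, 0 = red ∘ v →
      ∃ w, v = w + w ∧ (red ∘ w = 0 → v = 0)) _ (congrArg Multiplicative.toAdd h5)
    have h7 : ψ (Multiplicative.ofAdd w) * ψ (Multiplicative.ofAdd w) = 1 := by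
      rw [← map_mul, ← ofAdd_add, ← hw, ofAdd_toAdd, hv]
    refine h6 (Multiplicative.ofAdd.injective ((qψ w).symm.trans ?_))
    change Multiplicative.ofAdd (c _) = _
    rw [← coe_mul, h7, coe_one, co.c_one]
  let e := MulEquiv.ofBijective ψ (hi.bijective_of_nat_card_le (by simp [cA]))
  exact co_of_hom e.symm.toMonoidHom e.symm.surjective fun x => by
    rw [MulEquiv.coe_toMonoidHom, e.symm.map_eq_one_iff, mem_bot, OneMemClass.coe_eq_one]

def U1 : AddSubgroup W3 where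
  carrier := {v | red ∘ v = 0 ∨ red ∘ v = u0}
  zero_mem' := by decide +kernel
  add_mem' := by decide +kernel
  neg_mem' := by decide +kernel

def U0 : AddSubgroup W3 where
  carrier := {v | v = 0 ∨ v = ![2, 0, 0]}
  zero_mem' := by decide +kernel
  add_mem' := by decide +kernel
  neg_mem' := by decide +kernel

theorem card_U1 : Nat.card U1 = 16 :=
  (Nat.card_eq_fintype_card (α := {v : W3 // red ∘ v = 0 ∨ red ∘ v = u0})).trans (by decide +kernel)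

theorem card_U0 : Nat.card U0 = 2 :=
  (Nat.card_eq_fintype_card (α := {v : W3 // v = 0 ∨ v = ![2, 0, 0]})).trans (by decide +kernel)

theorem z4_check : ∀ a : ZMod 4, red a = 1 → ∀ b : ZMod 4, red b = 1 → ∀ c : ZMod 4, red c = 0 →
    ∀ d : ZMod 4, red d = 0 → ∀ e : ZMod 4, red e = 1 → ∀ f : ZMod 4, red f = 1 →
    ∀ g : ZMod 4, red g = 0 → ∀ h : ZMod 4, red h = 0 → ∀ i : ZMod 4, red i = 1 →
    ∀ M : N3, M = !![a, b, c; d, e, f; g, h, i] → ∀ T : N3, T = M * M → T * T = 1 → M.det = 1 →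
    (∀ v : W3, M *ᵥ v = v → ∃ k : ZMod 4, ![0, 0, k] + T *ᵥ ![0, 0, k] + v = 0) ∧
      ∀ v : W3, red ∘ v = 0 ∨ red ∘ v = u0 → v + T *ᵥ v = 0 ∨ v + T *ᵥ v = ![2, 0, 0] := by
  intro a ha b hb c hc d hd e he f hf g hg h hh i hi M hM T hT
  subst hT hM
  rw [det_fin_three]
  revert a b c d e f g h i
  decide +kernel

end Cfsg.Agent.GHE
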