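import Mathlib
import Cfsg.Agent.GHE.L32A

/-! Extensions of 2-groups by the simple group of order 168: one noncentral chief factor. -/

set_option autoImplicit false
set_option linter.unusedSectionVars false

namespace Cfsg.Agent.GHE
open Cfsg Subgroup Cfsg.Agent.PLocal.Amb Matrix

universe u
variable {G S : Type*} [Group G] [Finite G] [Group S]

theorem not_min16 {π : G →* S} (hs : Function.Surjective π) (hS : Nat.card S = 168)
    {N : Subgroup G} [hN : N.Normal] (sq : ∀ x ∈ N, x * x = 1)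
    (cen : ∀ x ∈ N, ∀ r ∈ π.ker, r * x = x * r)
    (min : ∀ K : Subgroup G, K.Normal → K ≤ N → K = ⊥ ∨ K = N) {e : G} (he : e ^ 7 = 1)
    (h16 : Nat.card N = 16) (h2 : Nat.card (fixMod N ⊥ e) = 2) : False := by
  have hn : e ∈ 𝐍[N] := le_normalizer_of_normal (mem_top e)
  rw [show fixMod N ⊥ e = N ⊓ centralizer {e} from Subgroup.ext fun r => by
    rw [mem_fixMod, mem_bot, mul_inv_eq_one, mul_inv_eq_iff_eq_mul, mem_inf,
      mem_centralizer_singleton_iff, eq_comm]] at h2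
  obtain ⟨U, -, cU, lU, sU, nU, fU⟩ := exists_U (K := N) he hn
    (fun k hk k' hk' => comm_of_sq sq hk (mul_mem (hN.conj_mem k' hk' e) (inv_mem hk')))
    fun k hk => by rw [sq k hk]; exact Commute.one_right _
  have hC := relIndex_mul_card (inf_le_left : N ⊓ centralizer {e} ≤ N)
  rw [inf_relIndex_left, ← cU, h2, h16] at hC
  have c8 : Nat.card U = 8 := by omega
  obtain ⟨n, hn0, n1⟩ := (bot_or_exists_ne_one (N ⊓ centralizer {e})).resolve_left fun a => by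
    simp [a] at h2
  have ce : Commute n e := mem_centralizer_singleton_iff.1 hn0.2
  have nU' : n ∉ U := fun a => n1 (fU n a (mul_inv_eq_iff_eq_mul.2 ce.eq.symm))
  have nn : n ∈ 𝐍[U] := mem_normalizer_fintype fun u hu => by
    rwa [comm_of_sq sq hn0.1 (lU hu), mul_inv_cancel_right]
  have n2 : n * n ∈ U := sq n hn0.1 ▸ one_mem _
  have dec : ∀ x ∈ N, x ∈ U ∨ ∃ u ∈ U, x = u * n := fun x hx => mem_ext2.1
    ((eq_of_le_of_card_ge (K := N) (H := ext2 U nn n2) (fun h hh => by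
      rcases mem_ext2.1 hh with a | ⟨a, ha, rfl⟩
      exacts [lU a, mul_mem (lU ha) hn0.1]) (by have := card_ext2 nn n2 nU'; omega)).ge hx)
  have t1 : ∀ u ∈ U, ∀ v ∈ U, u ≠ 1 → v ≠ 1 → IsConj u v ∧ IsConj (u * n) (v * n) :=
    fun u hu v hv a b => by
      obtain ⟨i, -, rfl⟩ := trans8 c8 he nU fU hu hv a b
      refine ⟨isConj_iff.2 ⟨_, rfl⟩, isConj_iff.2 ⟨e ^ i, ?_⟩⟩
      rw [mul_assoc _ _ n, ← (ce.pow_right i).inv_right.eq]; group
  have cj : ∀ g x : G, IsConj x (g * x * g⁻¹) := fun g x => isConj_iff.2 ⟨g, rfl⟩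
  have uN : ¬ U.Normal := fun a => by
    rcases min U a lU with b | b <;> simp [b, h16] at c8
  by_cases P1 : ∃ u ∈ U, IsConj n u <;> by_cases P2 : ∃ u ∈ U, u ≠ 1 ∧ IsConj n (u * n)
  · obtain ⟨u, hu, a⟩ := P1
    obtain ⟨v, hv, v1, b⟩ := P2
    have h3 := index_dvd_of_le (show π.ker ≤ centralizer {n} from fun r hr =>
      mem_centralizer_singleton_iff.2 (cen n hn0.1 r hr))
    rw [index_ker, MonoidHom.range_eq_top.2 hs, card_top, hS, index_cen,
      show {b | IsConj n b} = (N : Set G) \ {1} from Set.ext fun x => ⟨fun h => by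
        obtain ⟨g, rfl⟩ := isConj_iff.1 h
        exact ⟨hN.conj_mem n hn0.1 g, by simpa using n1⟩, fun ⟨h, x1⟩ => by
        rcases dec x h with c | ⟨w, hw, rfl⟩
        · exact a.trans (t1 u hu x c (fun d => n1 (by simpa [d] using a)) x1).1
        · by_cases d : w = 1
          · rw [d, one_mul]; exact IsConj.refl n
          · exact b.trans (t1 v hv w hw v1 d).2⟩,
      Set.ncard_sdiff_singleton_of_mem N.one_mem, ← Nat.card_coe_set_eq, SetLike.coe_sort_coe,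
      h16] at h3
    norm_num at h3
  · obtain ⟨w, hw, a⟩ := P1
    have k : ∀ g, ∀ x ∈ U, x ≠ 1 → ∃ y ∈ U, g * (x * n) * g⁻¹ = y * n := fun g x hx x1 =>
      (dec _ (hN.conj_mem _ (mul_mem (lU hx) hn0.1) g)).resolve_left fun c => P2 ⟨x, hx, x1,
        (a.trans (t1 w hw _ c (fun d => n1 (by simpa [d] using a)) fun d => nU' (by
          rw [conj_eq_one_iff, mul_eq_one_iff_inv_eq] at d
          exact d ▸ inv_mem hx)).1).trans (cj g _).symm⟩
    refine uN ⟨fun u hu g => ?_⟩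
    obtain ⟨x, hx, x1⟩ := SetLike.not_le_iff_exists.1 (show ¬ U ≤ zpowers u from fun c => by
      have := card_le_of_le c
      have := orderOf_le_of_pow_eq_one two_pos ((pow_two u).trans (sU u hu))
      rw [Nat.card_zpowers] at *
      omega)
    obtain ⟨y, hy, e1⟩ := k g x hx fun c => x1 (c ▸ one_mem _)
    obtain ⟨z, hz, e2⟩ := k g _ (mul_mem hx hu) fun c => x1 (by
      rw [mul_eq_one_iff_eq_inv.1 c]; exact inv_mem (mem_zpowers u))
    have pr : ∀ a ∈ U, ∀ b ∈ U, a * n * (b * n) = a * b := fun a ha b hb => by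
      rw [mul_assoc, ← mul_assoc n, comm_of_sq sq hn0.1 (lU hb), mul_assoc b, sq n hn0.1, mul_one]
    have : g * u * g⁻¹ = y * z := by
      rw [← pr y hy z hz, ← e1, ← e2, conj_mul, pr x hx _ (mul_mem hx hu), ← mul_assoc x, sU x hx,
        one_mul]
    exact this ▸ mul_mem hy hz
  · obtain ⟨v, hv, v1, b⟩ := P2
    refine uN ⟨fun u hu g => (dec _ (hN.conj_mem u (lU hu) g)).resolve_right ?_⟩
    rintro ⟨w, hw, c⟩
    refine P1 ⟨u, hu, IsConj.trans ?_ (cj g u).symm⟩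
    by_cases d : w = 1
    · rw [c, d, one_mul]
    · exact c ▸ b.trans (t1 v hv w hw v1 d).2
  · have k : ∀ g, g * n * g⁻¹ = n := fun g => by
      obtain ⟨w, hw, c⟩ := (dec _ (hN.conj_mem n hn0.1 g)).resolve_left fun c => P1 ⟨_, c, cj g n⟩
      by_contra d
      exact P2 ⟨w, hw, fun f => d (by simpa [f] using c), c ▸ cj g n⟩
    rcases min (zpowers n) ⟨by rintro _ ⟨i, rfl⟩ g; exact ⟨i, by simp only [← conj_zpow, k]⟩⟩
      (zpowers_le.2 hn0.1) with c | c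
    · exact n1 (zpowers_eq_bot.1 c)
    · exact nU' (by
        have := orderOf_le_of_pow_eq_one two_pos ((pow_two n).trans (sq n hn0.1))
        rw [← c, Nat.card_zpowers] at h16
        omega)

/-- The configuration in a minimal group with two noncentral chief factors. -/
structure Cx (π : G →* S) (e : G) (N A : Subgroup G) (c : G) : Prop where
  hs : Function.Surjective π
  hS : Nat.card S = 168
  h2 : IsPGroup 2 π.ker
  hr : SectionalPRankLE 2 4 G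
  he : e ^ 7 = 1
  NA : N ≤ A
  AR : A ≤ π.ker
  cN : Nat.card N = 8
  sN : ∀ x ∈ N, x * x = 1
  zN : ∀ x ∈ N, ∀ r ∈ π.ker, r * x = x * r
  fN : ∀ x ∈ N, e * x * e⁻¹ = x → x = 1
  cA : Nat.card A = 64
  sA : ∀ a ∈ A, a * a ∈ N
  nA : e ∈ 𝐍[A]
  tA : ∀ a ∈ A, ∀ b ∈ A, a ∉ N → b ∉ N → ∃ i < 7, b * (e ^ i * a * (e ^ i)⁻¹)⁻¹ ∈ N
  cR : c ∈ π.ker
  ec : Commute e c
  cc : ∀ a ∈ A, c * a * c⁻¹ * a⁻¹ ∈ N
  dec : ∀ r ∈ π.ker, ∃ a ∈ A, ∃ i : ℕ, r = a * c ^ i
  noc : ∀ z ∈ π.ker, (∀ g, g * z * g⁻¹ = z) → z * z = 1 → z = 1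
  nos : ∀ Y : Subgroup G, A ≤ Y → e ∈ Y → (∀ s, ∃ g ∈ Y, π g = s) → Y = ⊤

namespace Cx
variable [IsSimpleGroup S] {π : G →* S} {e c : G} {N A : Subgroup G} [hN : N.Normal]
  (h : Cx π e N A c)
include h

theorem sqeq {a n : G} (ha : a ∈ π.ker) (hn : n ∈ N) : n * a * (n * a) = a * a := by
  rw [mul_assoc, ← mul_assoc a, h.zN n hn a ha, ← mul_assoc, ← mul_assoc, h.sN n hn, one_mul]

theorem sqeq' {a b : G} (hb : b ∈ π.ker) (hn : a * b⁻¹ ∈ N) : a * a = b * b := by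
  simpa using h.sqeq hb hn

theorem tsq {a b : G} (ha : a ∈ A) (hb : b ∈ A) (a1 : a ∉ N) (b1 : b ∉ N) :
    ∃ i < 7, b * (e ^ i * a * (e ^ i)⁻¹)⁻¹ ∈ N ∧ b * b = e ^ i * (a * a) * (e ^ i)⁻¹ := by
  obtain ⟨i, hi, k⟩ := h.tA a ha b hb a1 b1
  exact ⟨i, hi, k, (h.sqeq' (h.AR (conj_pow_mem h.nA ha i)) k).trans (by group)⟩

theorem q1 {a : G} (ha : a ∈ A) (a1 : a ∉ N) : a * a ≠ 1 := fun k => by
  have := bound h.hr (bot_le : ⊥ ≤ A) fun b hb => by
    by_cases b1 : b ∈ N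
    · exact h.sN b b1
    · obtain ⟨i, -, -, f⟩ := h.tsq ha hb a1 b1
      simp [f, k]
  simp [h.cA] at this

theorem injA (a : G) (ha : a ∈ A) (b : G) (hb : b ∈ A) : a * a = b * b ↔ a * b⁻¹ ∈ N := by
  refine ⟨fun k => ?_, h.sqeq' (h.AR hb)⟩
  by_cases b1 : b ∈ N
  · exact mul_mem (by_contra fun a1 => h.q1 ha a1 (k.trans (h.sN b b1))) (inv_mem b1)
  obtain ⟨i, hi, f1, f2⟩ := h.tsq hb ha b1 fun a1 => h.q1 hb b1 (k.symm.trans (h.sN a a1))
  by_cases i0 : i = 0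
  · simpa [i0] using f1
  · exact absurd (h.fN _ (h.sA b hb) (fix_of_pow h.he (i := i) (by omega) (f2.symm.trans k)))
      (h.q1 hb b1)

theorem exA : ∃ a ∈ A, a ∉ N := SetLike.not_le_iff_exists.1 fun k => by
  have := card_le_of_le k
  rw [h.cA, h.cN] at this
  omega

theorem surjA (n : G) (hn : n ∈ N) : ∃ a ∈ A, a * a = n := by
  by_cases n1 : n = 1
  · exact ⟨1, one_mem _, by simp [n1]⟩
  obtain ⟨a, ha, a1⟩ := h.exA
  obtain ⟨i, -, rfl⟩ := trans8 h.cN h.he (le_normalizer_of_normal (mem_top e)) h.fN (h.sA a ha) hn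
    (h.q1 ha a1) n1
  exact ⟨_, conj_pow_mem h.nA ha i, by group⟩

theorem coN : ∃ (κ : G → V3) (ρ : G →* M3), Co N ⊥ κ ρ ∧ Rep π ρ := by
  obtain ⟨κ, ρ, co⟩ := exists_co (n := 3) (bot_le : ⊥ ≤ N) h.sN (by simp [h.cN])
  refine ⟨κ, ρ, co, rep_of h.hS h.hs (e := e) (fun r hr => co.rho_eq_one_iff.2 fun x hx => by
    rw [h.zN x hx r hr]; simp) fun k => ?_⟩
  obtain ⟨a, ha, a1⟩ := h.exA
  exact h.q1 ha a1 (h.fN _ (h.sA a ha) (mul_inv_eq_one.1 (co.rho_eq_one_iff.1 k _ (h.sA a ha))))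

theorem z4 [hA : A.Normal] (k : π.ker ≤ A ∨ ∃ z ∈ π.ker, ∀ a ∈ A, z * a * z⁻¹ = a⁻¹) : False := by
  obtain ⟨κ, ρ, co, rp⟩ := h.coN
  obtain ⟨κ, ρ, co⟩ := exists_co4 co h.cA (rp.fano co h.sA h.injA) h.sA h.surjA
  clear rp
  let δ : G →* ZMod 4 := detMonoidHom.comp ρ
  have dA : A ≤ δ.ker := fun a ha => by
    rw [MonoidHom.mem_ker, MonoidHom.comp_apply, co.rho_of_mem ha, map_one]
  have de : e ∈ δ.ker := (by decide : ∀ a : ZMod 4, a ^ 7 = 1 → a = 1) _ (by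
    rw [← map_pow, h.he, map_one])
  rcases k with k | ⟨z, hz, k⟩
  swap
  · have dz : δ z = -1 := by
      have : ρ z = -1 := Matrix.ext_of_mulVec_single fun i => by
        obtain ⟨x, hx, hv⟩ := co.surj (Pi.single i 1)
        rw [← hv, ← co.conj z x hx, k x hx, co.inv hx, neg_mulVec, one_mulVec]
      rw [MonoidHom.comp_apply, this]
      decide +kernel
    have := h.nos δ.ker dA de fun s => by
      obtain ⟨g, rfl⟩ := h.hs s
      rcases (by decide : ∀ a b : ZMod 4, a * b = 1 → a = 1 ∨ a * -1 = 1) (δ g) (δ g⁻¹)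
        (by rw [← map_mul, mul_inv_cancel, map_one]) with a | a
      · exact ⟨g, a, rfl⟩
      · exact ⟨g * z, by rw [MonoidHom.mem_ker, map_mul, dz, a], by
          rw [map_mul, MonoidHom.mem_ker.1 hz, mul_one]⟩
    exact absurd (dz.symm.trans (this.ge (mem_top z))) (by decide)
  let ρ' : G →* M3 := (red.mapMatrix : N3 →+* M3).toMonoidHom.comp ρ
  have rm : ∀ g v, red ∘ (ρ g *ᵥ v) = ρ' g *ᵥ (red ∘ v) := fun g v =>
    funext fun i => red.map_mulVec _ _ i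
  have e1 : ρ' e ≠ 1 := fun f => by
    obtain ⟨a, ha, a1⟩ := h.exA
    refine h.q1 ha a1 (h.fN _ (h.sA a ha) ?_)
    have h1 := hA.conj_mem a ha e
    rw [show e * (a * a) * e⁻¹ = e * a * e⁻¹ * (e * a * e⁻¹) by group, ← mul_inv_eq_one, ← mem_bot,
      ← co.eq_iff (mul_mem h1 h1) (mul_mem ha ha), co.mul _ h1 _ h1, co.mul _ ha _ ha, co.conj e a ha]
    exact (by decide +kernel : ∀ v w : W3, red ∘ v = red ∘ w → v + v = w + w) _ _
      (by rw [rm, f, one_mulVec])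
  have rp : Rep π ρ' := rep_of h.hS h.hs (fun r hr => by
    rw [MonoidHom.comp_apply, co.rho_of_mem (k hr), map_one]) e1
  have dt : δ.ker = ⊤ := (ker_or_top h.hs (k.trans dA)).resolve_left fun f =>
    e1 ((rp.ker e).2 (f.le de))
  obtain ⟨y, d, hy, hd, d3, y4, y2, w⟩ := rp.ex_yd h.hs h.h2
  obtain ⟨-, -, -, -, -, f1, -, f2, f3, -⟩ := m3_facts
  have ent : ∀ i j, red (ρ y i j) = sM i j := fun i j => congrFun (congrFun hy i) j
  obtain ⟨g1, g2⟩ := z4_check _ (ent 0 0) _ (ent 0 1) _ (ent 0 2) _ (ent 1 0) _ (ent 1 1) _ (ent 1 2)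
    _ (ent 2 0) _ (ent 2 1) _ (ent 2 2) (ρ y) (eta_fin_three _) (ρ (y * y)) (map_mul _ _ _)
    (by rw [← map_mul, co.rho_of_mem (k y4)]) (dt.ge (mem_top y))
  obtain ⟨j, g1⟩ := g1 (κ (y * y * (y * y))) (by rw [← co.conj y _ (k y4)]; congr 1; group)
  obtain ⟨a, ha, hv⟩ := co.surj ![0, 0, j]
  have xx : a * (y * y) * (a * (y * y)) = 1 := by
    have h1 := hA.conj_mem a ha (y * y)
    rw [show a * (y * y) * (a * (y * y)) = a * (y * y * a * (y * y)⁻¹) * (y * y * (y * y)) by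
        simp [mul_assoc],
      ← mem_bot, ← co.zero _ (mul_mem (mul_mem ha h1) (k y4)), co.mul _ (mul_mem ha h1) _ (k y4),
      co.mul _ ha _ h1, co.conj _ a ha, hv, g1]
  have rx : ρ (a * (y * y)) = ρ (y * y) := by rw [map_mul, co.rho_of_mem ha, one_mul]
  have px : π (a * (y * y)) = π (y * y) := by rw [map_mul, MonoidHom.mem_ker.1 (h.AR ha), one_mul]
  have rx' : ρ' (a * (y * y)) = sM * sM := by
    rw [← hy, ← map_mul]; exact congrArg red.mapMatrix rx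
  generalize a * (y * y) = x at xx rx px rx'
  have dU : ∀ v ∈ U1, ρ d *ᵥ v ∈ U1 := fun v hv => by
    change red ∘ _ = 0 ∨ red ∘ _ = u0
    rw [rm, hd]
    rcases hv with a | a <;> simp [a, f1]
  have h01 : ∀ v ∈ U0, ∃ w ∈ U1, v = w + w := by
    change ∀ v : W3, v = 0 ∨ v = ![2, 0, 0] → ∃ w, (red ∘ w = 0 ∨ red ∘ w = u0) ∧ v = w + w
    decide +kernel
  have h10 : ∀ v ∈ U1, v + v ∈ U0 := by
    change ∀ v : W3, red ∘ v = 0 ∨ red ∘ v = u0 → v + v = 0 ∨ v + v = ![2, 0, 0]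
    decide +kernel
  have le : U0 ≤ U1 := fun v hv => by
    obtain ⟨w, hw, rfl⟩ := h01 v hv
    exact add_mem hw hw
  have := tri h.hr (A := co.pre U1) (B := co.pre U0) (x := x) (d := d)
    (fun b hb => ⟨hb.1, le hb.2⟩) (co.norm_pre dU)
    (co.norm_pre fun v hv => by
      obtain ⟨w, hw, rfl⟩ := h01 v hv
      rw [mulVec_add]
      exact h10 _ (dU w hw))
    (co.norm_pre fun v hv => by
      simpa [rx] using add_mem (neg_mem hv) (le (g2 v hv : v + _ ∈ U0)))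
    (fun b hb => ⟨mul_mem hb.1 hb.1, by rw [co.mul _ hb.1 _ hb.1]; exact h10 _ hb.2⟩)
    (fun b hb => by
      have h1 := hA.conj_mem b hb.1 x
      rw [show b * x * (b * x) = b * (x * b * x⁻¹) * (x * x) by group, xx, mul_one]
      exact ⟨mul_mem hb.1 h1, by rw [co.mul _ hb.1 _ h1, co.conj _ _ hb.1, rx]; exact g2 _ hb.2⟩)
    ⟨k (w x px), f2 _ (by
      have h1 := k (w x px)
      rw [← rx', ← hd, ← rm, ← rm, ← co.conj d _ h1, ← co.conj x _ (hA.conj_mem _ h1 d)]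
      congr 2
      have : d⁻¹ = d * d := inv_eq_of_mul_eq_one_right (by rw [← d3, pow_succ', sq])
      calc _ = x * (d * x * d⁻¹) * (d * (d * x * d⁻¹) * d⁻¹) * (d ^ 3 * x * (d ^ 3)⁻¹ * x⁻¹) := by
            group
        _ = _ := by simp [d3])⟩
    fun f => y2 (px.symm.trans (h.AR f.1))
  rw [co.card_pre bot_le, co.card_pre bot_le, card_U1, card_U0, card_bot] at this
  omega

theorem beta {z : G} (hz : z ∈ π.ker) (z1 : z ≠ 1) (zz : z * z = 1) (ez : Commute e z)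
    (zc : Commute z c) (za : ∀ a ∈ A, z * a * z⁻¹ * a⁻¹ ∈ N)
    (om : ∀ r ∈ π.ker, r * r ∈ N → r ∈ A ∨ ∃ a ∈ A, r = a * z)
    (sr : ∀ r ∈ π.ker, r * r * (r * r) ∈ N → r * r ∈ N ∨ ∃ n ∈ N, r * r = n * z)
    (hb : ∀ a ∈ A, a ∉ N → a * z * (a * z) ≠ 1) : False := by
  have hK : π.ker.Normal := inferInstance
  have zi : z⁻¹ = z := inv_eq_of_mul_eq_one_right zz
  have nA : z ∈ 𝐍[A] := mem_normalizer_fintype fun a ha => by
    simpa using mul_mem (h.NA (za a ha)) ha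
  have az : ∀ a ∈ A, a * z * (a * z) = z * a * z⁻¹ * a⁻¹ * (a * a) := fun a ha => by
    rw [← mul_assoc _ a a, ← h.zN _ (za a ha) a (h.AR ha), zi]; simp [mul_assoc]
  obtain ⟨Ω, mΩ, cΩ⟩ : ∃ Ω : Subgroup G, (∀ r, r ∈ Ω ↔ r ∈ A ∨ ∃ a ∈ A, r = a * z) ∧
      (z ∉ A → 128 ≤ Nat.card Ω) := ⟨ext2 A nA (zz ▸ one_mem _), fun _ => mem_ext2, fun k => by
    simpa [h.cA] using card_ext2 nA (zz ▸ one_mem _) k⟩
  obtain ⟨E, mE⟩ : ∃ E : Subgroup G, ∀ r, r ∈ E ↔ r ∈ N ∨ ∃ a ∈ N, r = a * z :=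
    ⟨ext2 N (le_normalizer_of_normal (mem_top z)) (zz ▸ one_mem _), fun _ => mem_ext2⟩
  have iΩ : ∀ r, r ∈ Ω ↔ r ∈ π.ker ∧ r * r ∈ N := fun r => ⟨fun k => by
    rcases (mΩ r).1 k with a | ⟨a, ha, rfl⟩
    · exact ⟨h.AR a, h.sA r a⟩
    · exact ⟨mul_mem (h.AR ha) hz, az a ha ▸ mul_mem (za a ha) (h.sA a ha)⟩,
    fun k => (mΩ r).2 (om r k.1 k.2)⟩
  have iE : ∀ r, r ∈ E ↔ r ∈ π.ker ∧ r * r = 1 := fun r => ⟨fun k => by
    rcases (mE r).1 k with a | ⟨a, ha, rfl⟩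
    · exact ⟨h.AR (h.NA a), h.sN r a⟩
    · exact ⟨mul_mem (h.AR (h.NA ha)) hz, (h.sqeq hz ha).trans zz⟩, fun k => (mE r).2 (by
    rcases om r k.1 (k.2 ▸ one_mem _) with a | ⟨a, ha, rfl⟩
    · exact Or.inl (by_contra fun b => h.q1 a b k.2)
    · exact Or.inr ⟨a, by_contra fun b => hb a ha b k.2, rfl⟩)⟩
  have nΩ : Ω.Normal := ⟨fun r hr g => (iΩ _).2 ⟨hK.conj_mem r ((iΩ r).1 hr).1 g, by
    rw [conj_mul]; exact hN.conj_mem _ ((iΩ r).1 hr).2 g⟩⟩
  have nE : E.Normal := ⟨fun r hr g => (iE _).2 ⟨hK.conj_mem r ((iE r).1 hr).1 g, by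
    rw [conj_mul, ((iE r).1 hr).2]; simp⟩⟩
  have zN : z ∉ N := fun k => z1 (h.fN z k (mul_inv_eq_iff_eq_mul.2 ez.eq))
  have zA : z ∉ A := fun k => h.q1 k zN zz
  have AΩ : A ≤ Ω := fun a ha => (mΩ a).2 (Or.inl ha)
  have NE : N ≤ E := fun a ha => (mE a).2 (Or.inl ha)
  have zE : z ∈ E := (iE z).2 ⟨hz, zz⟩
  have cj : ∀ g, ∃ n ∈ N, g * z * g⁻¹ = n * z := fun g =>
    ((mE _).1 (nE.conj_mem z zE g)).resolve_left fun k =>
      zN (by simpa [mul_assoc] using hN.conj_mem _ k g⁻¹)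
  obtain ⟨κ, ρ, co, rp⟩ := h.coN
  have k1 : ∀ n ∈ N, ∀ m ∈ N, κ n = κ m → n = m := fun n hn m hm k =>
    mul_inv_eq_one.1 ((co.eq_iff hn hm).1 k)
  have cA : ∀ a ∈ A, Commute z a := by
    by_contra k
    push Not at k
    obtain ⟨a, ha, k⟩ := k
    have a1 : a ∉ N := fun b => k (h.zN a b z hz)
    have k2 : ∀ b ∈ A, Commute z b → b ∈ N := fun b hb f => by_contra fun b1 => by
      obtain ⟨i, -, j⟩ := h.tA b hb a ha b1 a1
      exact k (inv_mul_cancel_right a _ ▸ Commute.mul_right (h.zN _ j z hz)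
        (((ez.symm.pow_right i).mul_right f).mul_right (ez.symm.pow_right i).inv_right))
    have k3 : ∀ w ∈ Ω, Commute z w → w ∈ E := fun w hw f => (mE w).2 (by
      rcases (mΩ w).1 hw with b | ⟨b, hb, rfl⟩
      · exact Or.inl (k2 w b f)
      · exact Or.inr ⟨b, k2 b hb (by simpa using f.mul_right (Commute.refl z).inv_right), rfl⟩)
    have gm := za a ha
    have am := h.sA a ha
    rcases v3_pair (κ (z * a * z⁻¹ * a⁻¹)) (κ (a * a)) with b | b | b | ⟨r, f, b1, b2, b3, b4⟩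
    · exact k (mul_inv_eq_iff_eq_mul.1 (mul_inv_eq_one.1 ((co.zero _ gm).1 b)))
    · exact h.q1 ha a1 ((co.zero _ am).1 b)
    · rw [← co.mul _ gm _ am, co.zero _ (mul_mem gm am), ← az a ha] at b
      exact hb a ha a1 b
    obtain ⟨g, hg⟩ := rp.transv b1
    have f1 : g * (z * a * z⁻¹ * a⁻¹) * g⁻¹ = z * a * z⁻¹ * a⁻¹ :=
      k1 _ (hN.conj_mem _ gm g) _ gm (by rw [co.conj _ _ gm, hg, b2]; simp)
    have f2 : κ (g * a * g⁻¹ * (g * a * g⁻¹)) = κ (a * a) + (f ⬝ᵥ κ (a * a)) • r := by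
      rw [conj_mul, co.conj _ _ am, hg]
    obtain ⟨n, hn, f3⟩ := cj g
    have wΩ := nΩ.conj_mem a (AΩ ha) g
    have f4 : z * (g * a * g⁻¹) * z⁻¹ = z * a * z⁻¹ * a⁻¹ * (g * a * g⁻¹) := by
      rw [← f1, show g * (z * a * z⁻¹ * a⁻¹) * g⁻¹ * (g * a * g⁻¹) =
        g * z * g⁻¹ * (g * a * g⁻¹) * (g * z * g⁻¹)⁻¹ by group, f3, show n * z * (g * a * g⁻¹) *
          (n * z)⁻¹ = n * (z * (g * a * g⁻¹) * z⁻¹) * n⁻¹ by group,
        ← h.zN n hn _ (hK.conj_mem _ ((iΩ _).1 wΩ).1 z), mul_inv_cancel_right]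
    generalize g * a * g⁻¹ = w at *
    have wa := mul_mem wΩ (inv_mem (AΩ ha))
    have f5 := k3 _ wa (mul_inv_eq_iff_eq_mul.1 (by
      rw [show z * (w * a⁻¹) * z⁻¹ = z * w * z⁻¹ * a⁻¹ * (z * a * z⁻¹ * a⁻¹)⁻¹ by group, f4,
        mul_assoc _ w, ← h.zN _ gm _ ((iΩ _).1 wa).1, mul_inv_cancel_right]))
    rcases (mE _).1 f5 with b | ⟨m, hm, b⟩
    · exact b3 (by rw [← f2, h.sqeq' (h.AR ha) b])
    · refine b4 ?_
      rw [← f2, ← co.mul _ gm _ am, mul_inv_eq_iff_eq_mul.1 b, mul_assoc m,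
        h.sqeq (mul_mem hz (h.AR ha)) hm, zi]
      simp [mul_assoc]
  have cR : ∀ r ∈ π.ker, Commute z r := fun r hr => by
    obtain ⟨a, ha, i, rfl⟩ := h.dec r hr
    exact (cA a ha).mul_right (zc.pow_right i)
  have cE : ∀ w ∈ E, ∀ r ∈ π.ker, r * w = w * r := fun w hw r hr => by
    rcases (mE w).1 hw with b | ⟨m, hm, rfl⟩
    · exact h.zN w b r hr
    · exact Commute.mul_right (h.zN m hm r hr) (cR r hr).symm
  have cl : ∀ n ∈ N, IsConj z (n * z) := fun n hn => by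
    by_cases n1 : n = 1
    · rw [n1, one_mul]
    obtain ⟨g, hg⟩ := not_forall.1 fun k => z1 (h.noc z hz k zz)
    obtain ⟨m, hm, f⟩ := cj g
    obtain ⟨i, -, rfl⟩ := trans8 h.cN h.he (le_normalizer_of_normal (mem_top e)) h.fN hm hn
      (fun b => hg (by simpa [b] using f)) n1
    refine (isConj_iff.2 ⟨g, f⟩).trans (isConj_iff.2 ⟨e ^ i, ?_⟩)
    rw [mul_assoc _ _ z, (ez.pow_left i).inv_left.eq]; group
  have i8 : (centralizer {z}).index = 8 := by
    rw [index_cen, show {b | IsConj z b} = (· * z) '' N from Set.ext fun x => ⟨fun k => by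
      obtain ⟨g, rfl⟩ := isConj_iff.1 k
      obtain ⟨n, hn, f⟩ := cj g
      exact ⟨n, hn, f.symm⟩, by rintro ⟨n, hn, rfl⟩; exact cl n hn⟩,
      Set.ncard_image_of_injective _ (mul_left_injective z), ← Nat.card_coe_set_eq]
    exact h.cN
  have fr : ∀ x, π (x * x) = 1 → π x ≠ 1 → ∀ w ∈ E, Commute x w → w ∈ N := fun x x2 x1 w hw k =>
    ((mE w).1 hw).resolve_right fun ⟨n, hn, f⟩ => by
      obtain ⟨g, hg⟩ := isConj_iff.1 (cl n hn)
      have b1 := ((centralizer {z}).map π).index_mul_card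
      rw [index_map_eq _ h.hs fun r hr => mem_centralizer_singleton_iff.2 (cR r hr).symm, i8,
        h.hS] at b1
      have b2 := orderOf_dvd_natCard _ (mem_map_of_mem π (K := centralizer {z}) (x := g⁻¹ * x * g)
        (mem_centralizer_singleton_iff.2 (by
          have := (k.map (MulAut.conj g⁻¹)).eq
          simpa [f, ← hg, mul_assoc] using this)))
      rw [orderOf_eq_prime (p := 2) (by
        rw [sq, ← map_mul, show g⁻¹ * x * g * (g⁻¹ * x * g) = g⁻¹ * (x * x) * g by group]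
        simp [x2]) (by simpa [mul_assoc, inv_mul_eq_one] using x1)] at b2
      omega
  have sq' : ∀ a b, b ∈ π.ker → a * b⁻¹ ∈ E → a * a = b * b := fun a b hb k => by
    rw [← inv_mul_cancel_right a b, mul_assoc _ b, ← mul_assoc b, cE _ k b hb, ← mul_assoc,
      ← mul_assoc, ((iE _).1 k).2, one_mul]
  have toA : ∀ w ∈ Ω, ∃ a ∈ A, w * a⁻¹ ∈ E := fun w hw => by
    rcases (mΩ w).1 hw with b | ⟨a, ha, rfl⟩
    · exact ⟨w, b, by simp⟩
    · exact ⟨a, ha, nE.conj_mem z zE a⟩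
  have ab := rp.fano (M := Ω) (E := E) co (fun m hm => ((iΩ m).1 hm).2) fun m hm m' hm' =>
    ⟨fun k => by
      obtain ⟨a, ha, f⟩ := toA m hm
      obtain ⟨b, hb, f'⟩ := toA m' hm'
      have := mul_mem (mul_mem f (NE ((h.injA a ha b hb).1 (by
        rw [← sq' _ _ (h.AR ha) f, k, sq' _ _ (h.AR hb) f'])))) (inv_mem f')
      simpa [mul_assoc] using this, sq' _ _ ((iΩ _).1 hm').1⟩
  obtain ⟨y, -, hy, -, -, y4, y2, -⟩ := rp.ex_yd h.hs h.h2
  have yΩ : ∀ k : ℕ, ∀ r ∈ π.ker, r ^ 2 ^ k = 1 → Commute (y * y) r → r ∈ Ω := fun k => by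
    induction k with
    | zero => intro r _ b _; rw [show r = 1 by simpa using b]; exact one_mem _
    | succ k ih =>
      intro r hr b f
      have := ih _ (mul_mem hr hr) (by rw [← sq, ← pow_mul, ← pow_succ', b]) (f.mul_right f)
      refine (iΩ r).2 ⟨hr, (sr r hr ((iΩ _).1 this).2).elim id fun ⟨n, hn, j⟩ => ?_⟩
      exact fr _ y4 y2 _ ((mE _).2 (Or.inr ⟨n, hn, j⟩)) (f.mul_right f)
  obtain ⟨k, hk⟩ := h.h2 ⟨_, y4⟩
  have y5 := yΩ k _ y4 (congrArg Subtype.val hk) ((Commute.refl _).mul_right (Commute.refl _))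
  have qm : ∀ a ∈ Ω, ∀ b ∈ Ω, a * b * (a * b) = a * a * (b * b) := fun a ha b hb => by
    rw [mul_assoc, ← mul_assoc b, ab b hb a ha]; simp only [mul_assoc]
  obtain ⟨-, -, -, -, -, -, -, -, -, f1⟩ := m3_facts
  have y6 := ((iΩ _).1 y5).2
  obtain ⟨v, hv⟩ := f1 (κ (y * y * (y * y) * (y * y * (y * y)))) (by
    rw [← hy, ← co.conj y _ y6]; congr 1; group)
  obtain ⟨n, hn, rfl⟩ := co.surj v
  obtain ⟨a, ha, rfl⟩ := h.surjA n hn
  have ya := nΩ.conj_mem a (AΩ ha) (y * y)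
  have xx : a * (y * y) * (a * (y * y)) = a * (y * y * a * (y * y)⁻¹) * (y * y * (y * y)) := by
    simp [mul_assoc]
  have xE : a * (y * y) * (a * (y * y)) ∈ E := (iE _).2 ⟨((iΩ _).1 (xx ▸ mul_mem (mul_mem (AΩ ha) ya)
    y5)).1, by
      have b := hN.conj_mem _ hn (y * y)
      rw [xx, qm _ (mul_mem (AΩ ha) ya) _ y5, qm _ (AΩ ha) _ ya, conj_mul, ← mem_bot,
        ← co.zero _ (mul_mem (mul_mem hn b) y6), co.mul _ (mul_mem hn b) _ y6, co.mul _ hn _ b,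
        co.conj _ _ hn, map_mul, hy, hv]⟩
  have x1 : π (a * (y * y)) ≠ 1 := by rwa [map_mul, MonoidHom.mem_ker.1 (h.AR ha), one_mul]
  generalize a * (y * y) = x at xE x1
  have x2 := ((iE _).1 xE).1
  have xB : ∀ w ∈ E, Commute x w → w ∈ N ⊓ centralizer {x} := fun w hw k =>
    ⟨fr x x2 x1 w hw k, mem_centralizer_singleton_iff.2 k.symm⟩
  let φ : Ω →* G := MonoidHom.mk' (fun w => w * w) fun a b => qm _ a.2 _ b.2
  have rφ : φ.range = N := le_antisymm (by rintro _ ⟨w, rfl⟩; exact ((iΩ _).1 w.2).2) fun n hn => by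
    obtain ⟨a, ha, rfl⟩ := h.surjA n hn
    exact ⟨⟨a, AΩ ha⟩, rfl⟩
  have mH : ∀ w, w ∈ ((N ⊓ centralizer {x}).comap φ).map Ω.subtype ↔
      w ∈ Ω ∧ w * w ∈ N ⊓ centralizer {x} := fun w =>
    ⟨by rintro ⟨w, k, rfl⟩; exact ⟨w.2, k⟩, fun k => ⟨⟨w, k.1⟩, k.2, rfl⟩⟩
  have c1 := ((N ⊓ centralizer {x}).comap φ).index_mul_card
  rw [index_comap, rφ, ← card_map_of_injective Ω.subtype_injective] at c1
  have c2 := relIndex_mul_card (inf_le_left : N ⊓ centralizer {x} ≤ N)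
  have c3 := uno h.hr (A := ((N ⊓ centralizer {x}).comap φ).map Ω.subtype)
    (B := N ⊓ centralizer {x}) (x := x)
    (fun b hb => (mH b).2 ⟨AΩ (h.NA hb.1), h.sN b hb.1 ▸ one_mem _⟩)
    (mem_normalizer_fintype fun w hw => (mH _).2 ⟨nΩ.conj_mem w ((mH w).1 hw).1 x, by
      rw [conj_mul, ← mem_centralizer_singleton_iff.1 ((mH w).1 hw).2.2, mul_inv_cancel_right]
      exact ((mH w).1 hw).2⟩)
    (fun w hw => ((mH w).1 hw).2)
    (fun w hw => by
      obtain ⟨b1, b2, b3⟩ := (mH w).1 hw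
      have b4 := nΩ.conj_mem w b1 x
      rw [show w * x * (w * x) = w * (x * w * x⁻¹) * (x * x) by group]
      refine mul_mem (xB _ ((iE _).2 ⟨((iΩ _).1 (mul_mem b1 b4)).1, ?_⟩) ?_)
        (xB _ xE ((Commute.refl _).mul_right (Commute.refl _)))
      · rw [qm _ b1 _ b4, conj_mul, ← mem_centralizer_singleton_iff.1 b3, mul_inv_cancel_right,
          h.sN _ b2]
      · refine mul_inv_eq_iff_eq_mul.1 ?_
        rw [show x * (w * (x * w * x⁻¹)) * x⁻¹ = x * w * x⁻¹ * (x * x * w * (x * x)⁻¹) by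
          simp [mul_assoc], ← cE _ xE w ((iΩ _).1 b1).1, mul_inv_cancel_right, ab _ b4 _ b1])
    fun k => x1 ((iΩ _).1 ((mH x).1 k).1).1
  have c4 := cΩ zA
  rw [h.cN] at c2
  nlinarith

theorem false : False := by
  have hK : π.ker.Normal := inferInstance
  by_cases k : π.ker ≤ A
  · have : A.Normal := le_antisymm h.AR k ▸ hK
    exact h.z4 (Or.inl k)
  obtain ⟨j, hj⟩ := IsPGroup.iff_orderOf.1 h.h2 ⟨c, h.cR⟩
  rw [orderOf_mk] at hj
  rcases j with _ | j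
  · refine k fun r hr => ?_
    obtain ⟨a, ha, i, rfl⟩ := h.dec r hr
    simpa [orderOf_eq_one_iff.1 hj] using ha
  have zz : c ^ 2 ^ j * c ^ 2 ^ j = 1 := by
    rw [← sq, ← pow_mul, ← pow_succ, ← hj, pow_orderOf_eq_one]
  have z1 : c ^ 2 ^ j ≠ 1 := pow_ne_one_of_lt_orderOf (by positivity)
    (hj ▸ Nat.pow_lt_pow_right (by norm_num) (by omega))
  have iv : ∀ i : ℕ, c ^ i * c ^ i ∈ N → c ^ i = 1 ∨ c ^ i = c ^ 2 ^ j := fun i b => by
    have := h.fN _ b (mul_inv_eq_iff_eq_mul.2 ((h.ec.pow_right i).mul_right (h.ec.pow_right i)).eq)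
    rw [← sq, ← pow_mul, ← orderOf_dvd_iff_pow_eq_one, hj, pow_succ] at this
    obtain ⟨m, rfl⟩ := Nat.dvd_of_mul_dvd_mul_right two_pos this
    rw [pow_mul, pow_eq_pow_mod m ((sq _).trans zz)]
    rcases Nat.mod_two_eq_zero_or_one m with a | a <;> simp [a]
  have cA : ∀ i : ℕ, ∀ a ∈ A, c ^ i * a * (c ^ i)⁻¹ * a⁻¹ ∈ N := fun i =>
    mem_actKer.1 (pow_mem (mem_actKer.2 h.cc) i)
  have sf : ∀ r ∈ π.ker, ∃ a ∈ A, ∃ i : ℕ, r = a * c ^ i ∧ ∃ n ∈ N, r * r = n * (c ^ i * c ^ i) :=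
    fun r hr => by
      obtain ⟨a, ha, i, rfl⟩ := h.dec r hr
      refine ⟨a, ha, i, rfl, _, mul_mem (cA i a ha) (h.sA a ha), ?_⟩
      rw [← mul_assoc _ a a, ← h.zN _ (cA i a ha) a (h.AR ha)]
      simp [mul_assoc]
  have om : ∀ r ∈ π.ker, r * r ∈ N → r ∈ A ∨ ∃ a ∈ A, r = a * c ^ 2 ^ j := fun r hr b => by
    obtain ⟨a, ha, i, rfl, n, hn, f⟩ := sf r hr
    rcases iv i ((mul_mem_cancel_left hn).1 (f ▸ b)) with d | d
    · exact Or.inl (by simpa [d] using ha)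
    · exact Or.inr ⟨a, ha, by rw [d]⟩
  have hz := pow_mem h.cR (2 ^ j)
  have ez := h.ec.pow_right (2 ^ j)
  by_cases hb : ∀ a ∈ A, a ∉ N → a * c ^ 2 ^ j * (a * c ^ 2 ^ j) ≠ 1
  · refine h.beta hz z1 zz ez ((Commute.refl c).pow_left _) (cA _) om (fun r hr b => ?_) hb
    obtain ⟨a, ha, i, -, n, hn, f⟩ := sf r hr
    rw [f, ← pow_add] at b ⊢
    rw [h.sqeq (pow_mem h.cR _) hn] at b
    rcases iv _ b with d | d
    · exact Or.inl (by simpa [d] using hn)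
    · exact Or.inr ⟨n, hn, by rw [d]⟩
  push Not at hb
  obtain ⟨a, ha, a1, f⟩ := hb
  generalize c ^ 2 ^ j = z at *
  have al : ∀ b ∈ A, b * z * (b * z) = 1 := fun b hb => by
    by_cases b1 : b ∈ N
    · exact (h.sqeq hz b1).trans zz
    obtain ⟨i, -, d⟩ := h.tA a ha b hb a1 b1
    have g : e ^ i * (a * z) * (e ^ i)⁻¹ = e ^ i * a * (e ^ i)⁻¹ * z := by
      rw [mul_assoc _ _ z, (ez.pow_left i).inv_left.eq]; group
    rw [h.sqeq' (hK.conj_mem _ (mul_mem (h.AR ha) hz) (e ^ i)) (by simpa [g, mul_assoc] using d),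
      conj_mul, f]
    simp
  have : A.Normal := ⟨fun b hb g => by
    by_cases b1 : b ∈ N
    · exact h.NA (hN.conj_mem b b1 g)
    refine (om _ (hK.conj_mem b (h.AR hb) g) (by
      rw [conj_mul]; exact hN.conj_mem _ (h.sA b hb) g)).resolve_right fun ⟨d, hd, q⟩ => ?_
    have := al d hd
    rw [← q, conj_mul, conj_eq_one_iff] at this
    exact h.q1 hb b1 this⟩
  exact h.z4 (Or.inr ⟨z, hz, fun b hb => by
    rw [inv_eq_of_mul_eq_one_right zz]
    exact eq_inv_of_mul_eq_one_right (by simpa only [mul_assoc] using al b hb)⟩)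

end Cx

theorem relIndex_of_inf {A C : Subgroup G} (h : A ⊓ C = ⊥) : C.relIndex A = Nat.card A := by
  have := relIndex_mul_card (inf_le_left : A ⊓ C ≤ A)
  rwa [inf_relIndex_left, h, card_bot, mul_one] at this

theorem claimA [IsSimpleGroup S] (hS : Nat.card S = 168) : ∀ (n : ℕ) (X : Type u) [Group X]
    [Finite X] (π : X →* S) (e : X), Function.Surjective π → IsPGroup 2 π.ker →
    SectionalPRankLE 2 4 X → e ^ 7 = 1 → Nat.card X = n → (centralizer {e}).relIndex π.ker ≤ 8 := by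
  intro n
  induction n using Nat.strong_induction_on with
  | _ n ih =>
  intro X _ _ π e hs h2 hr he hn
  have := Fact.mk (by norm_num : Nat.Prime 7)
  by_contra big
  have nm : ∀ (K : Subgroup X) [K.Normal], e ∈ 𝐍[K] := fun K _ => le_normalizer_of_normal (mem_top e)
  have he' : ∀ (N : Subgroup X) [N.Normal], QuotientGroup.mk' N e ^ 7 = 1 := fun N _ => by
    rw [← map_pow, he, map_one]
  have qu : ∀ (N : Subgroup X) [N.Normal], N ≠ ⊥ → N ≤ π.ker →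
      (centralizer {QuotientGroup.mk' N e}).relIndex (π.ker.map (QuotientGroup.mk' N)) ≤ 8 :=
    fun N _ N1 NR => by
      rw [← ker_lift N NR]
      exact ih _ (hn ▸ card_quot_lt N N1) (X ⧸ N) _ _
        (QuotientGroup.lift_surjective_of_surjective _ _ hs _) (by rw [ker_lift]; exact h2.map _)
        (FGS.SecRank.quotient hr N) (he' N) rfl
  have nc : ∀ (N : Subgroup X) [N.Normal], N ≠ ⊥ → N ≤ π.ker → ∃ x ∈ N, ¬ Commute e x :=
    fun N hN N1 NR => by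
      by_contra! k
      refine big (le_of_eq_of_le ?_ (qu N N1 NR))
      rw [← relIndex_comap, ← inf_relIndex_left, ← inf_relIndex_left π.ker (comap _ _)]
      congr 1
      refine Subgroup.ext fun r => (and_congr_right fun hr => ?_).trans
        (mem_fixMod (W := N) (e := e)).symm
      refine mem_centralizer_singleton_iff.trans ⟨fun a => by simp [← a], fun a => (mul_inv_eq_iff_eq_mul.1 (mul_inv_eq_one.1
        (eq_one_of_seven h2 (NR a) (pow7_of_fix he (k _ a))))).symm⟩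
  obtain ⟨N, hN, N1, NR, sN, zN, mN⟩ := exists_min h2 le_rfl fun a => big (by simp [a])
  obtain ⟨cN, fN⟩ := (fix7 bot_le (h2.to_le NR) (bound hr bot_le fun x hx => mem_bot.2 (sN x hx))
    (he ▸ one_mem _) (nm N) (by
      obtain ⟨x, hx, a⟩ := nc N N1 NR
      exact ⟨x, hx, fun b => a (mul_inv_eq_iff_eq_mul.1 (mul_inv_eq_one.1 b))⟩)).resolve_right
    fun a => not_min16 hs hS sN zN mN he (by simpa using a.1) (by simpa using a.2)
  rw [card_bot] at cN fN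
  have fN' : ∀ x ∈ N, e * x * e⁻¹ = x → x = 1 := fun x hx a =>
    mem_bot.1 ((card_eq_one.1 fN).le (mem_fixMod.2 ⟨hx, by simp [a]⟩))
  let p := QuotientGroup.mk' N
  have p1 : ∀ {x}, p x = 1 ↔ x ∈ N := fun {x} => QuotientGroup.eq_one_iff x
  obtain ⟨U, d, sp⟩ := exists_sp (h2.map p) (FGS.SecRank.quotient hr N) (he' N) (qu N N1 NR) fun a => by
    have k : ∀ r ∈ π.ker, e * r * e⁻¹ * r⁻¹ ∈ N := fun r hr => p1.1 (by
      simp only [map_mul, map_inv, p, ← mem_centralizer_singleton_iff.1 (a ⟨r, hr, rfl⟩)]; simp)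
    obtain ⟨U, m, cU, -⟩ := exists_U (K := π.ker) he (nm _) (fun r hr s hs => zN _ (k s hs) r hr)
      fun r hr => mul_inv_eq_iff_eq_mul.1 (by
        rw [← conj_mul, ← inv_mul_cancel_right (e * r * e⁻¹) r, mul_assoc _ r, ← mul_assoc r,
          zN _ (k r hr) r hr, ← mul_assoc, ← mul_assoc, sN _ (k r hr), one_mul])
    have := card_le_of_le (show U ≤ N from fun u hu => by
      obtain ⟨r, hr, rfl⟩ := (m u).1 hu
      exact k r hr)
    omega
  obtain ⟨c, hc, rfl, ec⟩ : ∃ c ∈ π.ker, p c = d ∧ Commute e c := by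
    obtain ⟨c, hc, rfl⟩ := sp.mem
    obtain ⟨V, m, cV, lV, -⟩ := exists_U (K := N) he (nm _)
      (fun k hk k' hk' => comm_of_sq sN hk (mul_mem (hN.conj_mem k' hk' e) (inv_mem hk')))
      fun k hk => by rw [sN k hk]; exact Commute.one_right _
    rw [relIndex_of_inf (eq_bot_iff.2 fun x hx => fN' x hx.1
      (mul_inv_eq_iff_eq_mul.2 (mem_centralizer_singleton_iff.1 hx.2).symm))] at cV
    obtain ⟨x, hx, f⟩ := (m (e * c * e⁻¹ * c⁻¹)).1 ((eq_of_le_of_card_ge lV cV.ge).ge (p1.1 (by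
      simp only [map_mul, map_inv, p, sp.ec.eq]; simp)))
    refine ⟨x⁻¹ * c, mul_mem (inv_mem (NR hx)) hc, by rw [map_mul, map_inv, p1.2 hx]; simp [p],
      mul_inv_eq_iff_eq_mul.1 ?_⟩
    rw [show e * (x⁻¹ * c) * e⁻¹ = x⁻¹ * (e * x * e⁻¹ * x⁻¹)⁻¹ * (e * c * e⁻¹ * c⁻¹) * c by group, f]
    group
  have NA : N ≤ U.comap p := fun x hx => by rw [mem_comap, p1.2 hx]; exact one_mem _
  have AR : U.comap p ≤ π.ker := (comap_mono sp.le).trans
    (comap_map_eq_self (by rwa [QuotientGroup.ker_mk'])).le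
  have cA : Nat.card (U.comap p) = 64 := by
    rw [card_map_mk NA, map_comap_eq_self_of_surjective (QuotientGroup.mk'_surjective N), sp.card, cN]
  refine Cx.false (π := π) (e := e) (N := N) (A := U.comap p) (c := c) ⟨hs, hS, h2, hr, he, NA, AR,
    cN, sN, zN, fN', cA, fun a ha => p1.1 (by rw [map_mul, sp.sq _ ha]),
    mem_normalizer_fintype fun a ha => (mem_normalizer_iff.1 sp.norm _).1 ha,
    fun a ha b hb a1 b1 => ?_, hc, ec, fun a ha => p1.1 ?_, fun r hr => ?_, fun z hz k zz => ?_,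
    fun Y hY eY k => ?_⟩
  · obtain ⟨i, hi, f⟩ := trans8 sp.card (he' N) sp.norm sp.fpf ha hb (mt p1.1 a1) (mt p1.1 b1)
    exact ⟨i, hi, p1.1 (by simp only [map_mul, map_inv, map_pow, f, p, mul_inv_cancel])⟩
  · simp only [map_mul, map_inv, (sp.cu _ ha).eq]; simp
  · obtain ⟨u, hu, i, f⟩ := sp.dec _ ⟨r, hr, rfl⟩
    exact ⟨r * (c ^ i)⁻¹, by simpa only [mem_comap, map_mul, map_inv, map_pow, p, f,
      mul_inv_cancel_right] using hu, i, by simp⟩
  · by_contra z1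
    have : (zpowers z).Normal := ⟨by rintro _ ⟨i, rfl⟩ g; exact ⟨i, by simp only [← conj_zpow, k]⟩⟩
    obtain ⟨_, ⟨i, rfl⟩, f⟩ := nc (zpowers z) (by simpa using z1) (zpowers_le.2 hz)
    exact f (Commute.zpow_right (mul_inv_eq_iff_eq_mul.1 (k e)) i)
  · by_contra Y1
    have := ih _ (hn ▸ (card_lt_of_not_mem le_top (mem_top _) (SetLike.exists_of_lt
      (lt_top_iff_ne_top.2 Y1)).choose_spec.2).trans_eq card_top) Y (π.comp Y.subtype) ⟨e, eY⟩
      (fun s => by obtain ⟨g, hg, rfl⟩ := k s; exact ⟨⟨g, hg⟩, rfl⟩) (isPGroup_subgroupOf h2 Y)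
      (FGS.SecRank.subgroup hr Y) (Subtype.ext he) rfl
    have h1 := (relIndex_le_of_le_right (show (U.comap p).subgroupOf Y ≤ (π.comp Y.subtype).ker from
      fun x hx => AR hx) index_ne_zero_of_finite).trans this
    rw [relIndex_of_inf (eq_bot_iff.2 fun x hx => ?_),
      Nat.card_congr (subgroupOfEquivOfLe hY).toEquiv] at h1
    · omega
    have f : e * x * e⁻¹ = x := mul_inv_eq_iff_eq_mul.2
      (congrArg Subtype.val (mem_centralizer_singleton_iff.1 hx.2)).symm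
    exact Subtype.ext (fN' _ (p1.1 (sp.fpf _ hx.1 (by
      rw [← map_inv, ← map_mul, ← map_mul]; exact congrArg p f))) f)

end Cfsg.Agent.GHE
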