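import Mathlib
import Cfsg.Agent.GHE.L32B

/-! Extensions of 2-groups by the simple group of order 168 in sectional rank four. -/

set_option autoImplicit false
set_option linter.unusedSectionVars false

namespace Cfsg.Agent.GHE
open Cfsg Subgroup Cfsg.Agent.PLocal.Amb Matrix

variable {G S : Type*} [Group G] [Finite G] [Group S]

theorem schur_pow {π : G →* S} (hs : Function.Surjective π) (hc : π.ker ≤ center G) (s : S) {r : G}
    (hr : r ∈ π.ker) (h : r ∈ commutator G) : r ^ (zpowers s).index = 1 := by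
  let H := (zpowers s).comap π
  let _ : CommGroup H := commGroupOfCyclicCenterQuotient (π.subgroupComap (zpowers s)) fun x hx =>
    mem_center_iff.2 fun g => Subtype.ext (mem_center_iff.1 (hc (congrArg Subtype.val hx)) g)
  have h1 := MonoidHom.transfer_eq_pow (MonoidHom.id H) r fun k g _ => by
    rw [mul_assoc, ← mem_center_iff.1 (pow_mem (hc hr) k) g, inv_mul_cancel_left]
  rw [Abelianization.commutator_subset_ker _ h] at h1
  rw [← index_comap_of_surjective _ hs]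
  exact congrArg Subtype.val h1.symm

theorem cl2 {x y z a b c : G} (zc : ∀ g, Commute z g) (ax : Commute a x) (bx : Commute b x)
    (cx : Commute c x) (ay : Commute a y) (ab : Commute a b) (ac : Commute a c) (bc : Commute b c)
    (a2 : a * a = 1) (b2 : b * b = 1) (c2 : c * c = 1) (z4 : z * z * (z * z) = 1)
    (h1 : x * x = a * z) (h2 : y * y = b * z) (h3 : x * y * (x * y) * (c * z) = 1) : z * z = 1 := by
  have k1 : x⁻¹ * y * x = (b * z * (c * z) * (a * z))⁻¹ * y := by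
    rw [← h1, ← h2, eq_inv_of_mul_eq_one_right h3]; group
  have k2 : Commute (b * z * (c * z) * (a * z)) x :=
    ((bx.mul_left (zc x)).mul_left (cx.mul_left (zc x))).mul_left (ax.mul_left (zc x))
  have k3 : b * z * (c * z) * (a * z) * (b * z * (c * z) * (a * z)) = z * z := by
    rw [← sq, (((ab.symm.mul_right (zc b).symm).mul_left (zc _)).mul_left
      ((ac.symm.mul_right (zc c).symm).mul_left (zc _))).mul_pow,
      ((bc.mul_right (zc b).symm).mul_left (zc _)).mul_pow, (zc b).symm.mul_pow, (zc c).symm.mul_pow,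
      (zc a).symm.mul_pow, sq, sq, sq, sq, a2, b2, c2, one_mul, z4, one_mul]
  generalize b * z * (c * z) * (a * z) = k at *
  have k4 : (x * x)⁻¹ * y * (x * x) = (k * k)⁻¹ * y := by
    rw [show (x * x)⁻¹ * y * (x * x) = x⁻¹ * (x⁻¹ * y * x) * x by group, k1, ← mul_assoc,
      ← k2.inv_inv.eq, mul_assoc, mul_assoc, ← mul_assoc x⁻¹, k1]
    group
  rw [h1, mul_assoc, ← (ay.mul_left (zc y)).eq, inv_mul_cancel_left, k3] at k4
  exact inv_eq_one.1 (mul_eq_right.1 k4.symm)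

def L0 : AddSubgroup V3 where
  carrier := {v | v = 0 ∨ v = u0}
  zero_mem' := by decide +kernel
  add_mem' := by decide +kernel
  neg_mem' := by decide +kernel

theorem card_L0 : Nat.card L0 = 2 :=
  (Nat.card_eq_fintype_card (α := {v : V3 // v = 0 ∨ v = u0})).trans (by decide +kernel)

theorem Sp.comm {R U : Subgroup G} {e c : G} (sp : Sp R e U c) : ∀ r ∈ R, ∀ s ∈ R, Commute r s := by
  intro r hr s hs
  obtain ⟨u, hu, i, rfl⟩ := sp.dec r hr
  obtain ⟨v, hv, j, rfl⟩ := sp.dec s hs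
  exact (Commute.mul_right (comm_of_sq sp.sq hu hv) ((sp.cu u hu).symm.pow_right j)).mul_left
    (((sp.cu v hv).pow_left i).mul_right ((Commute.refl c).pow_pow i j))

theorem Sp.sqr {R U : Subgroup G} {e c : G} (sp : Sp R e U c) {u : G} (hu : u ∈ U) (i : ℕ) :
    u * c ^ i * (u * c ^ i) = c ^ i * c ^ i := by
  rw [mul_assoc, ← mul_assoc (c ^ i), ((sp.cu u hu).pow_left i).eq, ← mul_assoc, ← mul_assoc,
    sp.sq u hu, one_mul]

theorem exists_omg {R : Subgroup G} [hR : R.Normal] (ab : ∀ r ∈ R, ∀ s ∈ R, Commute r s) (n : ℕ) :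
    ∃ Ω : Subgroup G, Ω.Normal ∧ ∀ r, r ∈ Ω ↔ r ∈ R ∧ r ^ n = 1 :=
  ⟨{ carrier := {r | r ∈ R ∧ r ^ n = 1}
     one_mem' := ⟨one_mem _, one_pow n⟩
     mul_mem' := fun {a b} ha hb =>
       ⟨mul_mem ha.1 hb.1, by rw [(ab a ha.1 b hb.1).mul_pow, ha.2, hb.2, one_mul]⟩
     inv_mem' := fun {a} ha => ⟨inv_mem ha.1, by rw [inv_pow, ha.2, inv_one]⟩ },
    ⟨fun r hr g => ⟨hR.conj_mem r hr.1 g, by rw [conj_pow, hr.2]; simp⟩⟩, fun _ => Iff.rfl⟩

theorem Sp.pow_four [IsSimpleGroup S] (hS : Nat.card S = 168) {π : G →* S}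
    (hs : Function.Surjective π) (h2 : IsPGroup 2 π.ker) (hr : SectionalPRankLE 2 4 G) {e c : G}
    (e1 : π e ≠ 1) {U : Subgroup G} (sp : Sp π.ker e U c) : c ^ 4 = 1 := by
  have hK : π.ker.Normal := inferInstance
  obtain ⟨j, hj⟩ := IsPGroup.iff_orderOf.1 h2 ⟨c, sp.mem⟩
  rw [orderOf_mk] at hj
  by_contra c4
  obtain ⟨k, rfl⟩ : ∃ k, j = k + 3 := Nat.exists_eq_add_of_le' (by
    by_contra a
    exact c4 (orderOf_dvd_iff_pow_eq_one.1 (hj ▸ pow_dvd_pow 2 (by omega : j ≤ 2))))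
  have ab := sp.comm
  have sc : ∀ r ∈ π.ker, ∀ g, g * (r * r) * g⁻¹ = r * r := fun r hr g =>
    cen_top hs (N := Sq π.ker) (fun x hx r hr => ab r hr x (Sq_le _ hx)) e1 (fun x hx =>
      mul_inv_eq_iff_eq_mul.2 (mem_centralizer_singleton_iff.1 ((Sq_le_iff (N := centralizer {e})).2
        (fun r hr => by
          obtain ⟨u, hu, i, rfl⟩ := sp.dec r hr
          rw [sp.sqr hu]
          exact mem_centralizer_singleton_iff.2
            ((sp.ec.pow_right i).mul_right (sp.ec.pow_right i)).symm) hx)).symm) g _ (sq_mem_Sq hr)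
  obtain ⟨z, hz, zc, z1, z4, iv⟩ : ∃ z ∈ π.ker, (∀ g, Commute z g) ∧ z * z ≠ 1 ∧ z ^ 4 = 1 ∧
      ∀ r ∈ π.ker, r ^ 4 = 1 → r * r = 1 ∨ r * r = z * z := by
    have f : c ^ 2 ^ k * c ^ 2 ^ k * (c ^ 2 ^ k * c ^ 2 ^ k) = c ^ 2 ^ (k + 2) := by
      simp only [← pow_add]; congr 1; ring
    have f' : (c ^ 2 ^ (k + 2)) ^ 2 = 1 := by rw [← pow_mul, ← pow_succ, ← hj, pow_orderOf_eq_one]
    refine ⟨_, mul_mem (pow_mem sp.mem (2 ^ k)) (pow_mem sp.mem (2 ^ k)), fun g =>
      (mul_inv_eq_iff_eq_mul.1 (sc _ (pow_mem sp.mem _) g)).symm, ?_, ?_, fun r hr a => ?_⟩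
    · rw [f]
      exact pow_ne_one_of_lt_orderOf (by positivity)
        (hj ▸ Nat.pow_lt_pow_right (by norm_num) (by omega))
    · rw [show 4 = 2 * 2 from rfl, pow_mul, pow_two _, pow_two, f, ← pow_two, f']
    · obtain ⟨u, hu, i, rfl⟩ := sp.dec r hr
      rw [show 4 = 2 * 2 from rfl, pow_mul, pow_two (u * _), sp.sqr hu, ← pow_add, ← pow_mul,
        ← orderOf_dvd_iff_pow_eq_one, hj, pow_succ] at a
      obtain ⟨m, hm⟩ := Nat.dvd_of_mul_dvd_mul_right two_pos a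
      rw [sp.sqr hu, f, ← pow_add, hm, pow_mul, pow_eq_pow_mod m f']
      rcases Nat.mod_two_eq_zero_or_one m with a | a <;> simp [a]
  have zz : z * z * (z * z) = 1 := by rw [← z4]; simp [pow_succ, mul_assoc]
  obtain ⟨O, nO, mO⟩ := exists_omg ab 2
  obtain ⟨P, nP, mP⟩ := exists_omg ab 4
  simp only [pow_two] at mO
  have OP : O ≤ P := fun r hr => (mP r).2 ⟨((mO r).1 hr).1, by
    rw [show 4 = 2 * 2 from rfl, pow_mul, pow_two r, ((mO r).1 hr).2, one_pow]⟩
  have zO : z * z ∈ O := (mO _).2 ⟨mul_mem hz hz, zz⟩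
  have ZO : zpowers (z * z) ≤ O := zpowers_le.2 zO
  have Zc : ∀ w ∈ zpowers (z * z), ∀ g, Commute w g := by
    rintro _ ⟨i, rfl⟩ g
    exact ((zc g).mul_left (zc g)).zpow_left i
  have nZ : (zpowers (z * z)).Normal := ⟨fun w hw g => by
    rwa [← (Zc w hw g).eq, mul_inv_cancel_right]⟩
  have UZ : ∀ u ∈ U, u ∈ zpowers (z * z) → u = 1 := fun u hu a =>
    sp.fpf u hu (mul_inv_eq_iff_eq_mul.2 (Zc u a e).eq.symm)
  have UO : U ≤ O := fun u hu => (mO u).2 ⟨sp.le hu, sp.sq u hu⟩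
  have cZ : Nat.card (zpowers (z * z)) = 2 := by
    rw [Nat.card_zpowers, orderOf_eq_prime ((pow_two _).trans zz) z1]
  have cO : Nat.card O = 16 := by
    have a := two_mul_card_le UO zO fun a => z1 (UZ _ a (mem_zpowers _))
    have b := bound hr (bot_le : ⊥ ≤ O) fun r hr => ((mO r).1 hr).2
    rw [sp.card] at a
    rw [card_bot] at b
    omega
  have cP := two_mul_card_le OP ((mP z).2 ⟨hz, z4⟩) fun a => z1 ((mO z).1 a).2
  have dP : ∀ r ∈ P, r ∈ O ∨ ∃ w ∈ O, r = w * z := fun r hr => by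
    obtain ⟨a, b⟩ := (mP r).1 hr
    refine (iv r a b).imp (fun f => (mO r).2 ⟨a, f⟩) fun f => ⟨r * z⁻¹, (mO _).2
      ⟨mul_mem a (inv_mem hz), ?_⟩, by simp⟩
    rw [← pow_two, (zc r).symm.inv_right.mul_pow, pow_two, f, inv_pow, pow_two, mul_inv_cancel]
  obtain ⟨κ, ρ, co⟩ := exists_co (n := 3) ZO (fun r hr => ((mO r).1 hr).2 ▸ one_mem _)
    (by rw [cO, cZ]; rfl)
  have rp : Rep π ρ := rep_of hS hs (e := e) (fun r hr => co.rho_eq_one_iff.2 fun x hx => by
    rw [(ab r hr x ((mO x).1 hx).1).eq]; simp) fun f => by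
      have : U = ⊥ := eq_bot_iff.2 fun u hu => sp.fpf u hu (mul_inv_eq_one.1 (UZ _ (mul_mem
        ((mem_normalizer_iff.1 sp.norm u).1 hu) (inv_mem hu)) (co.rho_eq_one_iff.1 f u (UO hu))))
      simpa [this] using sp.card
  obtain ⟨y₀, d, hy, hd, -, y4, y2, w⟩ := rp.ex_yd hs h2
  obtain ⟨y, yc, hy'⟩ : π y₀ ∈ (commutator G).map π := by
    rcases (inferInstance : (commutator G).Normal).map π hs |>.eq_bot_or_eq_top with a | a
    · have := (rp.ker _).2 (mem_bot.1 (a.le (mem_map_of_mem π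
        (commutator_mem_commutator (mem_top y₀) (mem_top d)))))
      have b : ρ (y₀ * d) = ρ (d * y₀) := by
        rw [← inv_mul_cancel_right (y₀ * d) (d * y₀), map_mul, _root_.mul_inv_rev, ← mul_assoc]
        exact (congrArg (· * _) this).trans (one_mul _)
      rw [map_mul, map_mul, hy, hd] at b
      exact absurd b (by decide +kernel)
    · exact a.ge trivial
  replace hy : ρ y = sM := by
    rw [← inv_mul_cancel_right y y₀, map_mul, hy, (rp.ker _).2 (by simp [hy']), one_mul]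
  replace w := w (y * y) (by simp [hy'])
  replace y4 : π (y * y * (y * y)) = 1 := by simpa [hy'] using y4
  replace y2 : π (y * y) ≠ 1 := by simpa [hy'] using y2
  have sch : ∀ r ∈ commutator G, r ∈ π.ker → r ∈ P := fun r a b => by
    have OR : O ≤ π.ker := fun x hx => ((mO x).1 hx).1
    have := schur_pow (π := QuotientGroup.lift O π OR)
      (QuotientGroup.lift_surjective_of_surjective _ _ hs _) (by
        rw [ker_lift]
        rintro _ ⟨x, hx, rfl⟩
        refine mem_center_iff.2 fun g => ?_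
        obtain ⟨g, rfl⟩ := QuotientGroup.mk'_surjective O g
        rw [← mul_inv_eq_iff_eq_mul, ← mul_inv_eq_one, ← map_inv, ← map_inv, ← map_mul, ← map_mul,
          ← map_mul]
        have f := hK.conj_mem x hx g
        refine (QuotientGroup.eq_one_iff _).2 ((mO _).2 ⟨mul_mem f (inv_mem hx), ?_⟩)
        rw [← pow_two, (ab _ f _ (inv_mem hx)).mul_pow, pow_two, conj_mul, sc x hx, inv_pow, pow_two, mul_inv_cancel])
      (π y) (r := QuotientGroup.mk' O r) b (by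
        rw [commutator_def, ← map_top_of_surjective _ (QuotientGroup.mk'_surjective O),
          ← map_commutator]
        exact mem_map_of_mem _ a)
    have i := (zpowers (π y)).index_mul_card
    rw [Nat.card_zpowers, orderOf_eq_prime_pow (p := 2) (n := 1) (by simpa [pow_two] using y2)
      (by simpa [pow_succ, mul_assoc] using y4), hS] at i
    rw [show (zpowers (π y)).index = 42 by omega, ← map_pow] at this
    obtain ⟨m, hm⟩ := h2 ⟨r, b⟩
    have f : r ^ Nat.gcd 84 (2 ^ m) = 1 := pow_gcd_eq_one.2 ⟨by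
      rw [show 84 = 42 + 42 from rfl, pow_add]
      exact ((mO _).1 ((QuotientGroup.eq_one_iff _).1 this)).2, congrArg Subtype.val hm⟩
    refine (mP r).2 ⟨b, orderOf_dvd_iff_pow_eq_one.1 ((orderOf_dvd_of_pow_eq_one f).trans ?_)⟩
    exact (Nat.Coprime.coprime_dvd_left (Nat.gcd_dvd_right _ _) (Nat.Coprime.pow_left m
      (by norm_num : Nat.Coprime 2 21))).dvd_of_dvd_mul_right (Nat.gcd_dvd_left _ _)
  obtain ⟨-, -, -, -, f1, f2, f3, -, f4, -⟩ := m3_facts
  have BO : co.pre L0 ≤ O := fun b hb => hb.1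
  have ZB : zpowers (z * z) ≤ co.pre L0 := fun b hb => ⟨ZO hb, Or.inl (co.one ZO hb)⟩
  have k1 : ∀ w ∈ O, Commute y w → w ∈ co.pre L0 := fun w hw a => ⟨hw, f1 _ (by
    rw [← hy, ← co.conj y w hw, a.eq, mul_inv_cancel_right])⟩
  have dB : d ∈ 𝐍[co.pre L0] := co.norm_pre (by rintro v (rfl | rfl) <;> simp [hd, f2, L0])
  have sP : ∀ r ∈ P, r * r ∈ co.pre L0 := fun r hr => by
    rcases iv r ((mP r).1 hr).1 ((mP r).1 hr).2 with a | a <;> rw [a]
    exacts [one_mem _, ZB (mem_zpowers _)]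
  have xc : ∀ r ∈ P, y * y * r * (y * y)⁻¹ * r⁻¹ ∈ co.pre L0 := fun r hr => by
    have : ∀ r ∈ O, y * y * r * (y * y)⁻¹ * r⁻¹ ∈ co.pre L0 := fun r hr => by
      have a := nO.conj_mem r hr (y * y)
      exact ⟨mul_mem a (inv_mem hr), by
        rw [co.mul _ a _ (inv_mem hr), co.conj _ _ hr, co.inv hr, map_mul, hy]; exact f4 _⟩
    rcases dP r hr with a | ⟨v, hv, rfl⟩
    · exact this r a
    · rw [show y * y * (v * z) * (y * y)⁻¹ * (v * z)⁻¹ = y * y * v * (z * (y * y)⁻¹) * z⁻¹ * v⁻¹ by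
        group, (zc (y * y)⁻¹).eq]
      simpa [mul_assoc] using this v hv
  have x1 := mul_mem yc yc
  have nC : (commutator G).Normal := inferInstance
  have x2 := nC.conj_mem _ x1 d
  have wP := sch _ (mul_mem (mul_mem x1 x2) (nC.conj_mem _ x2 d)) w
  have yy : Commute y (y * y * (y * y)) := by simp
  rcases dP _ (sch _ (mul_mem x1 x1) y4) with a | ⟨v, hv, a⟩
  · have := tri hr (A := P) (B := co.pre L0) (x := y * y) (d := d) (BO.trans OP)
      (le_normalizer_of_normal (mem_top _)) dB (le_normalizer_of_normal (mem_top _)) sP (fun r hr => by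
        have b := mul_mem (mul_mem (xc r hr) (sP r hr)) (k1 _ a yy)
        rw [← mul_assoc _ r r, (ab _ ((mO _).1 (BO (xc r hr))).1 _ ((mP r).1 hr).1).eq] at b
        simpa [mul_assoc] using b) wP fun b => y2 ((mP _).1 b).1
    rw [co.card_pre ZO, card_L0, cZ] at this
    omega
  let T : G → Prop := fun x => (∀ b ∈ co.pre L0, Commute b x) ∧ (∃ b ∈ co.pre L0, x * x = b * z) ∧
    ∀ r ∈ P, x * r * x⁻¹ * r⁻¹ ∈ co.pre L0
  have st : ∀ x, T x → T (d * x * d⁻¹) := fun x ⟨t1, ⟨b, hb, t2⟩, t3⟩ => ⟨fun b hb => by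
    simpa [mul_assoc] using (t1 _ ((mem_normalizer_iff''.1 dB b).1 hb)).map (MulAut.conj d),
    ⟨_, (mem_normalizer_iff.1 dB b).1 hb, by
      rw [conj_mul, t2, mul_assoc _ _ z, ← (zc d⁻¹).eq]; group⟩, fun r hr => by
    simpa [mul_assoc] using (mem_normalizer_iff.1 dB _).1 (t3 _ (nP.conj_mem r hr d⁻¹))⟩
  have T1 : T (y * y) := ⟨fun b hb => by
    have f := (co.eq_iff (nO.conj_mem b hb.1 y) hb.1).1 (by
      rw [co.conj _ _ hb.1, hy]
      rcases hb.2 with f | f <;> simp [f, f3])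
    refine (mul_inv_eq_iff_eq_mul.1 ?_).symm
    have g : y * b * y⁻¹ = y * b * y⁻¹ * b⁻¹ * b := by simp
    generalize y * b * y⁻¹ * b⁻¹ = t at f g
    rw [show y * y * b * (y * y)⁻¹ = y * (y * b * y⁻¹) * y⁻¹ by group, g, ← mul_assoc,
      ← (Zc t f y).eq, mul_assoc, mul_assoc, ← mul_assoc y, g, ← mul_assoc, ((mO t).1 (ZO f)).2,
      one_mul], ⟨v, k1 v hv (by simpa [a] using yy.mul_right (zc y).symm.inv_right), a⟩, xc⟩
  have T2 := st _ T1
  obtain ⟨-, ⟨b3, h3, t3⟩, t4⟩ := st _ T2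
  obtain ⟨s1, ⟨b1, h1, t1⟩, -⟩ := T1
  obtain ⟨s2, ⟨b2, h2', t2⟩, -⟩ := T2
  have BR : ∀ b ∈ co.pre L0, b ∈ π.ker := fun b hb => ((mO b).1 hb.1).1
  have h4 := mul_mem (mul_mem (t4 _ (inv_mem wP)) (sP _ (inv_mem wP))) h3
  refine z1 (cl2 zc (s1 _ h1) (s1 _ h2') (s1 _ h4) (s2 _ h1) (ab _ (BR _ h1) _ (BR _ h2'))
    (ab _ (BR _ h1) _ (BR _ h4)) (ab _ (BR _ h2') _ (BR _ h4)) ((mO _).1 h1.1).2 ((mO _).1 h2'.1).2
    ((mO _).1 h4.1).2 zz t1 t2 ?_)
  have := (ab _ (inv_mem w) _ (mul_mem (BR _ h3) hz)).eq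
  rw [← t3] at this
  rw [mul_assoc _ b3, ← t3]
  generalize d * (d * (y * y) * d⁻¹) * d⁻¹ = q at this
  generalize y * y * (d * (y * y) * d⁻¹) = p at this
  rw [inv_inv, mul_assoc _ _ (q * q), mul_assoc _ _ (q * q), this]
  group

theorem l32 [IsSimpleGroup S] (hS : Nat.card S = 168) {π : G →* S} (hs : Function.Surjective π)
    (h2 : IsPGroup 2 π.ker) (hr : SectionalPRankLE 2 4 G) (hC : 𝐂[π.ker] ≤ π.ker) :
    ∃ e U c, Sp π.ker e U c ∧ c ^ 4 = 1 := by
  have := Fact.mk (by norm_num : Nat.Prime 7)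
  have : Finite S := Nat.finite_of_card_ne_zero (by omega)
  obtain ⟨s, h⟩ := exists_prime_orderOf_dvd_card' (G := S) 7 (by rw [hS]; norm_num)
  obtain ⟨e, rfl, he⟩ := exists_lift_pow hs h2 (p := 7) (by norm_num) (by norm_num)
    (h ▸ pow_orderOf_eq_one s)
  have e1 : π e ≠ 1 := fun a => by simp [a] at h
  obtain ⟨U, c, sp⟩ := exists_sp h2 hr he (claimA hS _ G π e hs h2 hr he rfl) fun a =>
    e1 (hC fun r hr => mem_centralizer_singleton_iff.1 (a hr))
  exact ⟨e, U, c, sp, sp.pow_four hS hs h2 hr e1⟩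

end Cfsg.Agent.GHE
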