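import Mathlib
import Cfsg.Agent.GHE.Base

/-! An extension of `2 ^ 4` by `S₆` acting faithfully has sectional rank at least five. -/

set_option autoImplicit false
set_option linter.unusedSectionVars false
set_option linter.style.haveILetI false

namespace Cfsg.Agent.GHE
open Cfsg Subgroup Cfsg.Agent.PLocal.Amb

abbrev V4 := Fin 4 → ZMod 2
abbrev E4 := Module.End (ZMod 2) V4

/-- fixed vectors -/
def Fx (T : E4) : Submodule (ZMod 2) V4 := LinearMap.ker (T - 1)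

theorem mem_Fx {T : E4} {v : V4} : v ∈ Fx T ↔ T v = v := by
  rw [Fx, LinearMap.mem_ker, LinearMap.sub_apply, sub_eq_zero]; rfl

theorem add_self4 (v : V4) : v + v = 0 := funext fun _ => CharTwo.add_self_eq_zero _

theorem eq_of_add4 {v w : V4} (h : v + w = 0) : v = w := by
  rw [← add_zero v, ← add_self4 w, ← add_assoc, h, zero_add]

theorem card_sub (U : Submodule (ZMod 2) V4) : Nat.card U = 1 ∨ Nat.card U = 2 ∨ Nat.card U = 4 ∨
    Nat.card U = 8 ∨ Nat.card U = 16 := by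
  have h := AddSubgroup.card_addSubgroup_dvd_card U.toAddSubgroup
  rw [show Nat.card V4 = 2 ^ 4 by simp] at h
  obtain ⟨k, hk, e⟩ := (Nat.dvd_prime_pow Nat.prime_two).1 h
  change Nat.card U = _ at e
  interval_cases k <;> simp [e]

theorem card_mono {U W : Submodule (ZMod 2) V4} (h : U ≤ W) : Nat.card U ≤ Nat.card W :=
  Nat.card_le_card_of_injective _ (Submodule.inclusion_injective h)

theorem eq_of_card {U W : Submodule (ZMod 2) V4} (h : U ≤ W) (h' : Nat.card W ≤ Nat.card U) :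
    U = W := Submodule.toAddSubgroup_injective (AddSubgroup.eq_of_le_of_card_ge h h')

theorem card_top4 : Nat.card (⊤ : Submodule (ZMod 2) V4) = 16 := by simp

theorem card_rk (f : E4) : Nat.card (LinearMap.range f) * Nat.card (LinearMap.ker f) = 16 := by
  rw [← Nat.card_congr f.quotKerEquivRange.toEquiv, mul_comm,
    ← Submodule.card_eq_card_quotient_mul_card]
  simp

theorem modFx {D : E4} {p k : ℕ} [Fact p.Prime] {U : Submodule (ZMod 2) V4} (hU : ∀ v ∈ U, D v ∈ U)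
    (hD : ∀ v ∈ U, (D ^ p ^ k) v = v) : Nat.card U ≡ Nat.card ↥(U ⊓ Fx D) [MOD p] := by
  classical
  have := Fintype.ofFinite U
  let f : Function.End U := fun v => ⟨D v, hU v v.2⟩
  have hf : ∀ n, ∀ v : U, ((f ^ n) v : V4) = (D ^ n) v := fun n => by
    induction n with
    | zero => intro v; rfl
    | succ n ih => intro v; rw [pow_succ, pow_succ]; exact ih (f v)
  have h1 := Equiv.Perm.card_fixedPoints_modEq (f := f) (p := p) (n := k)
    (funext fun v => Subtype.ext ((hf _ v).trans (hD v v.2)))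
  rw [← Nat.card_eq_fintype_card, ← Nat.card_eq_fintype_card] at h1
  rwa [Nat.card_congr (show f.fixedPoints ≃ ↥(U ⊓ Fx D) from
    ⟨fun a => ⟨a.1, a.1.2, mem_Fx.2 (congrArg Subtype.val a.2)⟩,
      fun a => ⟨⟨a.1, a.2.1⟩, Subtype.ext (mem_Fx.1 a.2.2)⟩, fun _ => rfl, fun _ => rfl⟩)] at h1

theorem Fx_ne_top {T : E4} (h : T ≠ 1) : Nat.card (Fx T) ≠ 16 := fun e =>
  h (LinearMap.ext fun v => mem_Fx.1 ((eq_of_card le_top (by rw [e, card_top4])).ge (show v ∈ ⊤ from trivial)))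

theorem Fx3 {D : E4} (h : D ^ 3 = 1) (h1 : D ≠ 1) : Nat.card (Fx D) = 1 ∨ Nat.card (Fx D) = 4 := by
  have := Fact.mk Nat.prime_three
  have h2 := modFx (D := D) (p := 3) (k := 1) (U := ⊤) (fun _ _ => trivial) fun v _ => by simp [h]
  rw [top_inf_eq, card_top4] at h2
  have h3 := Fx_ne_top h1
  rcases card_sub (Fx D) with e | e | e | e | e <;> simp_all [Nat.ModEq]

theorem eq_zero_of_card {U : Submodule (ZMod 2) V4} (h : Nat.card U = 1) {v : V4} (hv : v ∈ U) :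
    v = 0 := congrArg Subtype.val ((Nat.card_eq_one_iff_unique.1 h).1.elim (⟨v, hv⟩ : U) 0)

theorem free_la {T E : E4} (hE : E ^ 5 = 1) (h1 : E ≠ 1) (h : T * E = E ^ 4 * T) :
    Nat.card (Fx T) ≤ 4 := by
  have : Fact (Nat.Prime 5) := ⟨by norm_num⟩
  have h2 := modFx (D := E) (p := 5) (k := 1) (U := ⊤) (fun _ _ => trivial) fun v _ => by simp [hE]
  rw [top_inf_eq, card_top4] at h2
  have h3 := Fx_ne_top h1
  have h4 : Nat.card (Fx E) = 1 := by
    rcases card_sub (Fx E) with e | e | e | e | e <;> simp_all [Nat.ModEq]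
  let f : (Fx T × Fx T) →+ V4 := AddMonoidHom.mk' (fun x => x.1 + E x.2) fun a b => by
    simp only [Prod.fst_add, Prod.snd_add, Submodule.coe_add, map_add]; abel
  have h5 : Function.Injective f := (injective_iff_map_eq_zero f).2 fun ⟨x, y⟩ e => by
    have e1 : (x : V4) = E y := eq_of_add4 e
    have e2 : (E ^ 4) y = E y := by
      rw [← e1, ← mem_Fx.1 x.2, e1, ← Module.End.mul_apply, h, Module.End.mul_apply, mem_Fx.1 y.2]
    have e3 : (E ^ 3) y = y := by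
      have := congrArg (E ^ 4 : E4) e2
      rwa [← Module.End.mul_apply, ← Module.End.mul_apply, ← pow_succ, hE, ← pow_add,
        show 4 + 4 = 5 + 3 by rfl, pow_add, hE, one_mul] at this
    have e4 : (y : V4) = 0 := eq_zero_of_card h4 (mem_Fx.2 (by
      have := congrArg (E ^ 3 : E4) e3
      rwa [← Module.End.mul_apply, e3, ← pow_add, show 3 + 3 = 5 + 1 by rfl, pow_add, hE, one_mul,
        pow_one] at this))
    rw [e4, map_zero] at e1
    exact Prod.ext (Subtype.ext e1) (Subtype.ext e4)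
  have h6 := Nat.card_le_card_of_injective f h5
  rw [Nat.card_prod, show Nat.card V4 = 16 by simp] at h6
  nlinarith

theorem norm_fix {D : E4} (h : D ^ 3 = 1) (v : V4) : v + D v + D (D v) ∈ Fx D := by
  rw [mem_Fx, map_add, map_add, show D (D (D v)) = (D ^ 3) v from rfl, h]
  simp only [Module.End.one_apply]; abel

theorem three {D : E4} {v : V4} (h : v ∈ Fx D) : v + D v + D (D v) = v := by
  rw [mem_Fx.1 h, mem_Fx.1 h, add_self4, zero_add]

/-- Of the two classes of elements of order three exactly one acts without fixed points. -/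
theorem dich {A B : E4} (hA : A ^ 3 = 1) (hB : B ^ 3 = 1) (hc : A * B = B * A) (h1 : A ≠ 1)
    {k : ℕ} (hk : k = 1 ∨ k = 4) (c1 : Nat.card (Fx A) = k) (c2 : Nat.card (Fx B) = k)
    (c3 : Nat.card (Fx (A * B)) = k) (c4 : Nat.card (Fx (A * B * B)) = k) : False := by
  have cm : ∀ v, B (A v) = A (B v) := fun v => (LinearMap.congr_fun hc v).symm
  have A3 : ∀ v, A (A (A v)) = v := fun v => LinearMap.congr_fun hA v
  have B3 : ∀ v, B (B (B v)) = v := fun v => LinearMap.congr_fun hB v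
  have key : Fx B ≤ Fx A → Fx (A * B) ≤ Fx A → Fx (A * B * B) ≤ Fx A → False := fun f1 f2 f3 => by
    have z : ∀ w ∈ Fx A, w + A w + A (A w) = 0 → w = 0 := fun w hw e => by rwa [three hw] at e
    refine h1 (LinearMap.ext fun v => (eq_of_add4 ?_).symm)
    change v + A v = 0
    have m : v + A v + A (v + A v) + A (A (v + A v)) = 0 := by
      simp only [map_add, A3]
      linear_combination add_self4 (v + A v + A (A v))
    generalize v + A v = w at m
    have e1 := congrArg B m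
    have e2 := congrArg (fun x => B (B x)) m
    have e3 := congrArg A m
    simp only [map_add, map_zero, cm] at e1 e2 e3
    have n : w + B w + B (B w) = 0 := z _ (f1 (norm_fix hB w)) (by
      simp only [map_add]
      linear_combination m + e1 + e2)
    have u : A w + B (B w) = 0 := z _ (f3 (mem_Fx.2 (by
      change A (B (B (A w + B (B w)))) = _
      have e4 := congrArg A n
      simp only [map_add, map_zero, cm, B3] at e4 ⊢
      linear_combination e2 + e4 - add_self4 (A (B (B w))) - add_self4 (A w) - add_self4 (B (B w)))))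
      (by simp only [map_add]; linear_combination e3 + e2)
    refine z _ (f2 (mem_Fx.2 ?_)) m
    change A (B w) = w
    rw [← cm, eq_of_add4 u, B3]
  have bot : ∀ {T : E4}, Nat.card (Fx T) = 1 → Fx T ≤ Fx A := fun h v hv =>
    eq_zero_of_card h hv ▸ zero_mem _
  rcases hk with rfl | rfl
  · exact key (bot c2) (bot c3) (bot c4)
  have := Fact.mk Nat.prime_three
  have h2 := modFx (D := B) (p := 3) (k := 1) (U := Fx A)
    (fun v hv => mem_Fx.2 (by rw [← cm, mem_Fx.1 hv])) fun v _ => B3 v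
  have h3 := card_mono (inf_le_left : Fx A ⊓ Fx B ≤ _)
  have h4 : Nat.card ↥(Fx A ⊓ Fx B) = 1 ∨ Nat.card ↥(Fx A ⊓ Fx B) = 4 := by
    have := card_sub (Fx A ⊓ Fx B)
    unfold Nat.ModEq at h2
    omega
  rcases h4 with h4 | h4
  · let f : (Fx A × Fx B × Fx (A * B)) →+ V4 := AddMonoidHom.mk' (fun x => x.1 + x.2.1 + x.2.2)
      fun a b => by simp only [Prod.fst_add, Prod.snd_add, Submodule.coe_add]; abel
    have h5 : Function.Injective f := (injective_iff_map_eq_zero f).2 fun ⟨x, y, w⟩ e => by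
      have e : (x : V4) + y + w = 0 := e
      have hy : B y = y := mem_Fx.1 y.2
      have hw : A (B w) = w := mem_Fx.1 w.2
      have n1 : (y : V4) + A y + A (A y) = 0 := eq_zero_of_card h4 ⟨norm_fix hA y, mem_Fx.2 (by
        simp only [map_add, cm, hy])⟩
      have hw2 : B w = A (A w) := by rw [← A3 (B w), hw]
      have n2 : (w : V4) + A w + A (A w) = 0 := eq_zero_of_card h4 ⟨norm_fix hA w, mem_Fx.2 (by
        simp only [map_add, cm, hw2, A3]; abel)⟩
      have e1 := congrArg A e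
      have e2 := congrArg (fun x => A (A x)) e
      simp only [map_add, map_zero] at e1 e2
      have x0 : (x : V4) = 0 := by linear_combination e + e1 + e2 - n1 - n2 - three x.2
      rw [x0, zero_add] at e
      have e3 := eq_of_add4 e
      have y0 : (y : V4) = 0 := eq_zero_of_card h4 ⟨mem_Fx.2 (by rw [← hy, e3, hw, ← e3, hy]), y.2⟩
      exact Prod.ext (Subtype.ext x0) (Prod.ext (Subtype.ext y0) (Subtype.ext (e3 ▸ y0)))
    have h6 := Nat.card_le_card_of_injective f h5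
    rw [Nat.card_prod, Nat.card_prod, c1, c2, c3, show Nat.card V4 = 16 by simp] at h6
    omega
  · have h5 := eq_of_card (inf_le_left : Fx A ⊓ Fx B ≤ _) (by rw [h4, c1])
    have h6 : ∀ v ∈ Fx A, B v = v := fun v hv => mem_Fx.1 (h5.ge hv).2
    refine key (eq_of_card (fun v hv => mem_Fx.2 (h6 v hv)) (by rw [c1, c2])).ge
      (eq_of_card (fun v hv => mem_Fx.2 ?_) (by rw [c1, c3])).ge
      (eq_of_card (fun v hv => mem_Fx.2 ?_) (by rw [c1, c4])).ge
    · change A (B v) = v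
      rw [h6 v hv, mem_Fx.1 hv]
    · change A (B (B v)) = v
      rw [h6 v hv, h6 v hv, mem_Fx.1 hv]

/-- An involution commuting with an element of order three with fixed points is a transvection. -/
theorem transv {T D : E4} (hT : T * T = 1) (h1 : T ≠ 1) (hD : D ^ 3 = 1) (hc : D * T = T * D)
    (c4 : Nat.card (Fx D) = 4) : Nat.card (Fx T) = 8 ∧ ∃ c, (∀ v, v + T v = 0 ∨ v + T v = c) ∧
      (∃ v, v + T v = c) ∧ c ≠ 0 ∧
      ∀ v ∈ Fx T, (∃ u, D v = v + (u + T u)) → v = 0 ∨ v = c := by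
  have := Fact.mk Nat.prime_three
  have := Fact.mk Nat.prime_two
  have cm : ∀ v, D (T v) = T (D v) := fun v => LinearMap.congr_fun hc v
  have T2 : ∀ v, T (T v) = v := fun v => LinearMap.congr_fun hT v
  have D3 : ∀ v, D (D (D v)) = v := fun v => LinearMap.congr_fun hD v
  have im : ∀ v, v + T v ∈ Fx T := fun v => mem_Fx.2 (by rw [map_add, T2, add_comm])
  have rk := card_rk (T - 1)
  have hr : ∀ w, w ∈ LinearMap.range (T - 1) ↔ ∃ v, v + T v = w := fun w => exists_congr fun v => by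
    rw [LinearMap.sub_apply, Module.End.one_apply]
    constructor <;> intro e <;> [linear_combination e + add_self4 v; linear_combination e - add_self4 v]
  have hle := card_mono (show LinearMap.range (T - 1) ≤ Fx T from fun w hw => by
    obtain ⟨v, rfl⟩ := (hr w).1 hw; exact im v)
  have m3 := modFx (D := D) (p := 3) (k := 1) (U := Fx T)
    (fun v hv => mem_Fx.2 (by rw [← cm, mem_Fx.1 hv])) fun v _ => D3 v
  have m2 := modFx (D := T) (p := 2) (k := 1) (U := Fx D)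
    (fun v hv => mem_Fx.2 (by rw [cm, mem_Fx.1 hv])) fun v _ => T2 v
  rw [c4, inf_comm] at m2
  have l1 := card_mono (inf_le_left : Fx T ⊓ Fx D ≤ _)
  have l2 := card_mono (inf_le_right : Fx T ⊓ Fx D ≤ _)
  have n16 := Fx_ne_top h1
  change _ * Nat.card (Fx T) = _ at rk
  have c8 : Nat.card (Fx T) = 8 := by
    by_contra n8
    have e4 : Nat.card (Fx T) = 4 := by
      rcases card_sub (Fx T) with e | e | e | e | e <;> rw [e] at rk hle n8 n16 <;> omega
    have e5 : Nat.card ↥(Fx T ⊓ Fx D) = 4 := by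
      have := card_sub (Fx T ⊓ Fx D)
      unfold Nat.ModEq at m2 m3
      omega
    have e6 := eq_of_card (inf_le_left : Fx T ⊓ Fx D ≤ _) (by rw [e4, e5])
    have e7 := eq_of_card (inf_le_right : Fx T ⊓ Fx D ≤ _) (by rw [c4, e5])
    have e8 : ∀ v, D v = v := fun v => by
      have a1 := mem_Fx.1 (e6.ge (im v)).2
      have a2 : v + D v ∈ Fx T := mem_Fx.2 (by
        rw [map_add, cm] at a1
        rw [map_add]
        linear_combination a1 + add_self4 (T v) - add_self4 (D v) - add_self4 v + add_self4 v)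
      have a3 := mem_Fx.1 (e6.ge a2).2
      rw [map_add] at a3
      have a4 : D (D v) = v := by linear_combination a3
      have := D3 v
      rwa [a4] at this
    have : Fx D = ⊤ := eq_top_iff.2 fun v _ => mem_Fx.2 (e8 v)
    rw [this, card_top4] at c4
    omega
  have c2 : Nat.card (LinearMap.range (T - 1)) = 2 := by rw [c8] at rk; omega
  obtain ⟨⟨c, hcr⟩, c0, hc2⟩ := (Nat.card_eq_two_iff' (0 : LinearMap.range (T - 1))).1 c2
  have c0 : c ≠ 0 := fun e => c0 (Subtype.ext e)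
  have two : ∀ v, v + T v = 0 ∨ v + T v = c := fun v => or_iff_not_imp_left.2 fun e =>
    congrArg Subtype.val (hc2 ⟨_, (hr _).2 ⟨v, rfl⟩⟩ fun e' => e (congrArg Subtype.val e'))
  obtain ⟨v0, hv0⟩ := (hr c).1 hcr
  have Dc : D c = c := by
    have := two (D v0)
    rw [← cm, ← map_add, hv0] at this
    exact this.resolve_left fun e => c0 (by rw [← D3 c, e, map_zero, map_zero])
  have e5 : Nat.card ↥(Fx T ⊓ Fx D) = 2 := by
    have := card_sub (Fx T ⊓ Fx D)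
    unfold Nat.ModEq at m2 m3
    omega
  refine ⟨c8, c, two, ⟨v0, hv0⟩, c0, fun v hv ⟨u, hu⟩ => ?_⟩
  have hvD : D v = v := by
    rcases two u with e | e <;> rw [e] at hu
    · rw [hu, add_zero]
    · have a1 := D3 v
      rw [hu, map_add, hu, Dc, map_add, map_add, hu, Dc] at a1
      exact absurd (by linear_combination a1 - add_self4 c) c0
  obtain ⟨y, -, hy⟩ := (Nat.card_eq_two_iff' (0 : ↥(Fx T ⊓ Fx D))).1 e5
  refine or_iff_not_imp_left.2 fun e => congrArg Subtype.val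
    ((hy ⟨v, hv, mem_Fx.2 hvD⟩ fun e' => e (congrArg Subtype.val e')).trans
      (hy ⟨c, hv0 ▸ im v0, mem_Fx.2 Dc⟩ fun e' => c0 (congrArg Subtype.val e')).symm)

theorem card_inf_ge (U W : Submodule (ZMod 2) V4) :
    Nat.card U * Nat.card W ≤ 16 * Nat.card ↥(U ⊓ W) := by
  let f : (U × W) →+ V4 := AddMonoidHom.mk' (fun x => x.1 + x.2) fun a b => by
    simp only [Prod.fst_add, Prod.snd_add, Submodule.coe_add]; abel
  have h1 := f.ker.card_mul_index
  have h2 : Nat.card f.ker ≤ Nat.card ↥(U ⊓ W) := Nat.card_le_card_of_injective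
    (fun x => ⟨x.1.1, x.1.1.2, (eq_of_add4 x.2 : (x.1.1 : V4) = x.1.2) ▸ x.1.2.2⟩) fun x y e => by
      have e1 : (x.1.1 : V4) = y.1.1 := congrArg (fun z : ↥(U ⊓ W) => (z : V4)) e
      exact Subtype.ext (Prod.ext (Subtype.ext e1)
        (Subtype.ext ((eq_of_add4 x.2).symm.trans (e1.trans (eq_of_add4 y.2)))))
  have h3 : f.ker.index ≤ 16 := by
    rw [AddSubgroup.index_ker]
    exact (Nat.card_le_card_of_injective _ Subtype.val_injective).trans (by simp)
  rw [← Nat.card_prod, ← h1, mul_comm]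
  exact Nat.mul_le_mul h3 h2

theorem line {T₁ T₂ T₃ P D E : E4} (hT : T₁ * T₁ = 1) (h1 : T₁ ≠ 1) (c12 : T₁ * T₂ = T₂ * T₁)
    (c13 : T₁ * T₃ = T₃ * T₁) (c23 : T₂ * T₃ = T₃ * T₂) (p1 : P * T₁ = T₂ * P)
    (p2 : P * T₂ = T₃ * P) (p3 : P * T₃ = T₁ * P) (hP : P ^ 3 = 1) (fP : Nat.card (Fx P) = 1)
    (hD : D ^ 3 = 1) (hc : D * T₁ = T₁ * D) (c4 : Nat.card (Fx D) = 4) (hE : E ^ 5 = 1) (E1 : E ≠ 1)
    (hi : T₁ * T₂ * E = E ^ 4 * (T₁ * T₂)) : ∃ L : Submodule (ZMod 2) V4, Nat.card L = 4 ∧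
      (∀ v ∈ L, P v ∈ L) ∧ Fx (T₁ * T₂) ≤ L ∧ (∀ v, v + (T₁ * T₂ * T₃) v ∈ L) ∧
      (∀ v ∈ Fx T₁, (∃ u, D v = v + (u + T₁ u)) → v ∈ L) ∧ ∀ v, v + P v ∈ L → v ∈ L := by
  have := Fact.mk Nat.prime_three
  have := Fact.mk Nat.prime_two
  obtain ⟨c8, c, two, ⟨v0, hv0⟩, c0, hc'⟩ := transv hT h1 hD hc c4
  have q1 : ∀ v, P (T₁ v) = T₂ (P v) := fun v => LinearMap.congr_fun p1 v
  have q2 : ∀ v, P (T₂ v) = T₃ (P v) := fun v => LinearMap.congr_fun p2 v
  have q3 : ∀ v, P (T₃ v) = T₁ (P v) := fun v => LinearMap.congr_fun p3 v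
  have P3 : ∀ v, P (P (P v)) = v := fun v => LinearMap.congr_fun hP v
  have T2 : ∀ v, T₁ (T₁ v) = v := fun v => LinearMap.congr_fun hT v
  have m12 : ∀ v, T₁ (T₂ v) = T₂ (T₁ v) := fun v => LinearMap.congr_fun c12 v
  have m13 : ∀ v, T₁ (T₃ v) = T₃ (T₁ v) := fun v => LinearMap.congr_fun c13 v
  have m23 : ∀ v, T₂ (T₃ v) = T₃ (T₂ v) := fun v => LinearMap.congr_fun c23 v
  have T3 : ∀ v, T₃ (T₃ v) = v := fun v => by
    rw [← P3 v, ← q2, ← q1, ← q2, ← q1, T2]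
  have c82 : 8 ≤ Nat.card (Fx T₂) := c8 ▸ Nat.card_le_card_of_injective
    (fun v : Fx T₁ => (⟨P v, mem_Fx.2 (by rw [← q1, mem_Fx.1 v.2])⟩ : Fx T₂)) fun a b e =>
      Subtype.ext (by rw [← P3 a, show P a = P b from congrArg Subtype.val e, P3])
  have k1 := card_inf_ge (Fx T₁) (Fx T₂)
  have k2 : Fx T₁ ⊓ Fx T₂ ≤ Fx (T₁ * T₂) := fun v hv => mem_Fx.2 (by
    change T₁ (T₂ v) = v
    rw [mem_Fx.1 hv.2, mem_Fx.1 hv.1])
  have k3 := free_la hE E1 hi
  have k4 := card_mono k2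
  have k5 : Nat.card ↥(Fx T₁ ⊓ Fx T₂) = 4 := by rw [c8] at k1; omega
  have k6 := modFx (D := T₃) (p := 2) (k := 1) (U := Fx T₁ ⊓ Fx T₂) (fun v hv =>
    ⟨mem_Fx.2 (by rw [m13, mem_Fx.1 hv.1]), mem_Fx.2 (by rw [m23, mem_Fx.1 hv.2])⟩) fun v _ => T3 v
  have inv : ∀ v ∈ Fx T₁ ⊓ Fx T₂ ⊓ Fx T₃, P v ∈ Fx T₁ ⊓ Fx T₂ ⊓ Fx T₃ := fun v hv =>
    ⟨⟨mem_Fx.2 (by rw [← q3, mem_Fx.1 hv.2]), mem_Fx.2 (by rw [← q1, mem_Fx.1 hv.1.1])⟩,
      mem_Fx.2 (by rw [← q2, mem_Fx.1 hv.1.2])⟩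
  have k7 := modFx (D := P) (p := 3) (k := 1) inv fun v _ => P3 v
  have k8 := card_mono (inf_le_right : Fx T₁ ⊓ Fx T₂ ⊓ Fx T₃ ⊓ Fx P ≤ _)
  have k9 := card_mono (inf_le_left : Fx T₁ ⊓ Fx T₂ ⊓ Fx T₃ ≤ _)
  have k10 : Nat.card ↥(Fx T₁ ⊓ Fx T₂ ⊓ Fx T₃) = 4 := by
    have := card_sub (Fx T₁ ⊓ Fx T₂ ⊓ Fx T₃)
    have := card_sub (Fx T₁ ⊓ Fx T₂ ⊓ Fx T₃ ⊓ Fx P)
    unfold Nat.ModEq at k6 k7
    omega
  have fc : ∀ {T : E4}, (∀ v, T₁ (T v) = T (T₁ v)) → (∀ v, T (T v) = v) → c ∈ Fx T :=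
    fun {T} e e2 => mem_Fx.2 (by
      have := two (T v0)
      rw [e, ← map_add, hv0] at this
      exact this.resolve_left fun e' => c0 (by rw [← e2 c, e', map_zero]))
  have hcL : c ∈ Fx T₁ ⊓ Fx T₂ ⊓ Fx T₃ := ⟨⟨fc (fun _ => rfl) T2, fc m12 fun v => by
    rw [← P3 v, ← q1, ← q1, T2]⟩, fc m13 T3⟩
  have i1 : ∀ v, v + T₁ v ∈ Fx T₁ ⊓ Fx T₂ ⊓ Fx T₃ := fun v => by
    rcases two v with e | e <;> rw [e]
    exacts [zero_mem _, hcL]
  have i2 : ∀ v, v + T₂ v ∈ Fx T₁ ⊓ Fx T₂ ⊓ Fx T₃ := fun v => by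
    rw [← P3 v, ← q1, ← map_add]; exact inv _ (i1 _)
  have i3 : ∀ v, v + T₃ v ∈ Fx T₁ ⊓ Fx T₂ ⊓ Fx T₃ := fun v => by
    rw [← P3 v, ← q2, ← map_add]; exact inv _ (i2 _)
  refine ⟨_, k10, inv, (eq_of_card (inf_le_left.trans k2) (by omega)).ge, fun v => ?_,
    fun v hv hu => ?_, fun v hv => ?_⟩
  · convert add_mem (add_mem (i3 v) (i2 (T₃ v))) (i1 (T₂ (T₃ v))) using 1
    change v + T₁ (T₂ (T₃ v)) = _
    linear_combination -add_self4 (T₃ v) - add_self4 (T₂ (T₃ v))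
  · rcases hc' v hv hu with rfl | rfl
    exacts [zero_mem _, hcL]
  · have e := eq_zero_of_card fP (norm_fix hP v)
    have e2 : P (P v) = v + P v := (eq_of_add4 e).symm
    rw [← P3 v, e2]
    exact inv _ hv

/-- The configuration of elements. -/
def Cfg {S : Type*} [Group S] (t₁ t₂ t₃ r δ ε : S) : Prop :=
  (t₁ ≠ 1 ∧ r * t₁ = t₂ * r ∧ r * t₂ = t₃ * r ∧ r * t₃ = t₁ * r ∧ r ^ 3 = 1 ∧ δ ^ 3 = 1 ∧
    δ * t₁ = t₁ * δ ∧ ε ^ 5 = 1 ∧ ε ≠ 1 ∧ t₁ * t₂ * ε = ε ^ 4 * (t₁ * t₂)) ∧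
  (t₁ * t₁ = 1 ∧ t₂ * t₂ = 1 ∧ t₃ * t₃ = 1 ∧ t₁ * t₂ = t₂ * t₁ ∧ t₁ * t₃ = t₃ * t₁ ∧
    t₂ * t₃ = t₃ * t₂) ∧
  t₁ ≠ t₂ ∧ t₃ ≠ t₁ * t₂

variable {Y S : Type*} [Group Y] [Group S] [Finite Y]

theorem no_cfg (hr : SectionalPRankLE 2 4 Y) {π : Y →* S} (hs : Function.Surjective π)
    {c : Y → V4} {ρ : Y →* Matrix (Fin 4) (Fin 4) (ZMod 2)} {W : Subgroup Y}
    (hW : W ≤ π.ker) (co : Co π.ker W c ρ) (σ : S →* E4)
    (hσ : ∀ g v, σ (π g) v = (ρ g).mulVec v) (hi : Function.Injective σ) {t₁ t₂ t₃ r δ ε : S}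
    (h : Cfg t₁ t₂ t₃ r δ ε) (fP : Nat.card (Fx (σ r)) = 1) (c4 : Nat.card (Fx (σ δ)) = 4) :
    False := by
  obtain ⟨⟨a1, a2, a3, a4, a5, a6, a7, a8, a9, a10⟩, ⟨b1, b2, b3, b4, b5, b6⟩, d1, d2⟩ := h
  have ne : ∀ {s}, s ≠ 1 → σ s ≠ 1 := fun h e => h (hi (e.trans (map_one σ).symm))
  have mu : ∀ {a b c d : S}, a * b = c * d → σ a * σ b = σ c * σ d := fun h => by
    rw [← map_mul, h, map_mul]
  have po : ∀ {a : S} {k : ℕ}, a ^ k = 1 → σ a ^ k = 1 := fun h => by rw [← map_pow, h, map_one]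
  obtain ⟨L, cL, iL, l1, l2, l3, l4⟩ := line (by rw [← map_mul, b1, map_one]) (ne a1) (mu b4) (mu b5)
    (mu b6) (mu a2) (mu a3) (mu a4) (po a5) fP (po a6) (mu a7) c4 (po a8) (ne a9)
    (by rw [← map_pow, ← map_mul]; exact mu a10)
  have hK : π.ker.Normal := inferInstance
  have cj : ∀ g, ∀ x ∈ π.ker, c (g * x * g⁻¹) = σ (π g) (c x) := fun g x hx => by
    rw [hσ, co.conj g x hx]
  have fx : ∀ x, x * x ∈ π.ker → c (x * x) ∈ Fx (σ (π x)) := fun x hx => mem_Fx.2 (by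
    rw [← cj x _ hx]; congr 1; group)
  have sc : ∀ g x, x * x ∈ π.ker → π g * π x = π x * π g →
      ∃ u, σ (π g) (c (x * x)) = c (x * x) + (u + σ (π x) u) := fun g x hx e => by
    have h1 : x⁻¹ * (g * x * g⁻¹) ∈ π.ker := by
      rw [MonoidHom.mem_ker, map_mul, map_mul, map_mul, e, map_inv, map_inv]; group
    have h2 := hK.conj_mem _ h1 x⁻¹
    refine ⟨c (x⁻¹ * (x⁻¹ * (g * x * g⁻¹)) * x⁻¹⁻¹), ?_⟩
    rw [← cj x _ h2, ← co.mul _ h2 _ (hK.conj_mem _ h2 x), ← co.mul _ hx _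
      (mul_mem h2 (hK.conj_mem _ h2 x)), ← cj g _ hx]
    congr 1; group
  let good : S → Prop := fun s => ∀ x, π x = s → x * x ∈ co.pre L.toAddSubgroup
  have gc : ∀ {s s'}, good s → r * s = s' * r → good s' := fun {s s'} h e x hx => by
    obtain ⟨p, rfl⟩ := hs r
    obtain ⟨h1, h2⟩ := h (p⁻¹ * x * p) (by rw [map_mul, map_mul, map_inv, hx, mul_assoc, ← e]; group)
    rw [show x * x = p * (p⁻¹ * x * p * (p⁻¹ * x * p)) * p⁻¹ by group]
    exact ⟨hK.conj_mem _ h1 p, by rw [cj _ _ h1]; exact iL _ h2⟩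
  have ks : ∀ {x s}, π x = s → s * s = 1 → x * x ∈ π.ker := fun h e => by
    rw [MonoidHom.mem_ker, map_mul, h, e]
  have g0 : good 1 := fun x hx => ⟨mul_mem hx hx, by
    rw [co.mul _ hx _ hx, add_self4]; exact zero_mem _⟩
  have g1 : good t₁ := fun x hx => by
    obtain ⟨d, rfl⟩ := hs δ
    subst hx
    exact ⟨ks rfl b1, l3 _ (fx x (ks rfl b1)) (sc d x (ks rfl b1) a7)⟩
  have g2 : good t₂ := gc g1 a2
  have g3 : good t₃ := gc g2 a3
  have s12 : t₁ * t₂ * (t₁ * t₂) = 1 := by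
    rw [mul_assoc, ← mul_assoc t₂, ← b4, mul_assoc, b2, mul_one, b1]
  have g12 : good (t₁ * t₂) := fun x hx =>
    ⟨ks hx s12, l1 (by rw [← map_mul, ← hx]; exact fx x (ks hx s12))⟩
  have g23 : good (t₂ * t₃) := gc g12 (by rw [← mul_assoc, a2, mul_assoc, a3, mul_assoc])
  have g31 : good (t₃ * t₁) := gc g23 (by rw [← mul_assoc, a3, mul_assoc, a4, mul_assoc])
  have c3 : t₁ * t₂ * t₃ = t₃ * (t₁ * t₂) := by rw [mul_assoc, b6, ← mul_assoc, b5, mul_assoc]
  have s123 : t₁ * t₂ * t₃ * (t₁ * t₂ * t₃) = 1 := by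
    rw [mul_assoc, ← mul_assoc t₃, ← c3, mul_assoc (t₁ * t₂), b3, mul_one, s12]
  have g123 : good (t₁ * t₂ * t₃) := fun x hx => by
    obtain ⟨p, rfl⟩ := hs r
    obtain ⟨u, hu⟩ := sc p x (ks hx s123) (by
      rw [hx, ← mul_assoc, ← mul_assoc, a2, mul_assoc t₂, a3, mul_assoc, mul_assoc, a4, ← mul_assoc,
        ← mul_assoc, mul_assoc t₂, ← b5, ← mul_assoc, ← b4])
    refine ⟨ks hx s123, l4 _ ?_⟩
    rw [hu, ← add_assoc, add_self4, zero_add, hx, map_mul, map_mul]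
    exact l2 u
  have i1 := inv_eq_of_mul_eq_one_right b1
  have i2 := inv_eq_of_mul_eq_one_right b2
  have i3 := inv_eq_of_mul_eq_one_right b3
  let φ : Multiplicative (ZMod 2 × ZMod 2 × ZMod 2) → S := fun a =>
    t₁ ^ a.toAdd.1.val * t₂ ^ a.toAdd.2.1.val * t₃ ^ a.toAdd.2.2.val
  have pw : ∀ {t : S}, t * t = 1 → ∀ a b : ZMod 2, t ^ (a + b).val = t ^ a.val * t ^ b.val :=
    fun h a b => by rw [ZMod.val_add, ← pow_add, ← pow_eq_pow_mod _ (by rw [sq, h])]
  let ψ : Multiplicative (ZMod 2 × ZMod 2 × ZMod 2) →* S := MonoidHom.mk' φ fun a b => by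
    simp only [φ, toAdd_mul, Prod.fst_add, Prod.snd_add, pw b1, pw b2, pw b3]
    have e1 := (Commute.pow_pow (show Commute t₁ t₂ from b4) b.toAdd.1.val a.toAdd.2.1.val).eq
    have e2 := (Commute.pow_pow (show Commute t₁ t₃ from b5) b.toAdd.1.val a.toAdd.2.2.val).eq
    have e3 := (Commute.pow_pow (show Commute t₂ t₃ from b6) b.toAdd.2.1.val a.toAdd.2.2.val).eq
    simp only [mul_assoc]
    rw [← mul_assoc (t₃ ^ _) (t₁ ^ _), ← e2, ← mul_assoc (t₁ ^ b.toAdd.1.val), e1]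
    simp only [mul_assoc]
    rw [← mul_assoc (t₃ ^ _) (t₂ ^ _), ← e3, mul_assoc]
  have zz : ∀ a : ZMod 2, a = 0 ∨ a = 1 := by decide
  have v1 : (1 : ZMod 2).val = 1 := rfl
  have cr : ∀ {s s' : S}, r * s = s' * r → s' = 1 → s = 1 := fun h e => by simpa [e] using h
  have n2 : t₂ ≠ 1 := fun e => a1 (cr a2 e)
  have n3 : t₃ ≠ 1 := fun e => n2 (cr a3 e)
  have n12 : t₁ * t₂ ≠ 1 := fun e => d1 (i2 ▸ eq_inv_of_mul_eq_one_left e)
  have n23 : t₂ * t₃ ≠ 1 := fun e => n12 (cr (by rw [← mul_assoc, a2, mul_assoc, a3, mul_assoc]) e)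
  have n13 : t₁ * t₃ ≠ 1 := fun e =>
    n23 (cr (by rw [← mul_assoc, a3, mul_assoc, a4, mul_assoc]) (b5 ▸ e))
  have n123 : t₁ * t₂ * t₃ ≠ 1 := fun e => d2 (i3 ▸ eq_inv_of_mul_eq_one_left e).symm
  have hψ : Function.Injective ψ := (injective_iff_map_eq_one ψ).2 fun ⟨a, b, c⟩ e => by
    change t₁ ^ a.val * t₂ ^ b.val * t₃ ^ c.val = 1 at e
    rcases zz a with rfl | rfl <;> rcases zz b with rfl | rfl <;> rcases zz c with rfl | rfl <;>
      first | rfl | (exfalso; simp [v1, a1, n2, n3, n12, n23, n13, n123] at e)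
  have hb := bound hr (N := co.pre L.toAddSubgroup) (H := ψ.range.comap π)
    (fun x hx => by rw [mem_comap, MonoidHom.mem_ker.1 hx.1]; exact one_mem _) (by
      rintro x ⟨⟨a, b, c⟩, e⟩
      change t₁ ^ a.val * t₂ ^ b.val * t₃ ^ c.val = _ at e
      rcases zz a with rfl | rfl <;> rcases zz b with rfl | rfl <;> rcases zz c with rfl | rfl <;>
        simp only [v1, ZMod.val_zero, pow_zero, pow_one, one_mul, mul_one] at e
      exacts [g0 x e.symm, g3 x e.symm, g2 x e.symm, g23 x e.symm, g1 x e.symm,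
        g31 x (e.symm.trans b5), g12 x e.symm, g123 x e.symm])
  have e1 := co.card_pre hW L.toAddSubgroup
  have e2 := co.card_pre hW ⊤
  have e3 : co.pre ⊤ = π.ker := by ext x; simp [co.mem_pre]
  have e4 := card_mul_index (π.ker.subgroupOf (ψ.range.comap π))
  rw [Nat.card_congr (subgroupOfEquivOfLe (ker_le_comap _ _)).toEquiv, ← relIndex, relIndex_ker,
    map_comap_eq_self_of_surjective hs, ← Nat.card_congr (ψ.ofInjective hψ).toEquiv] at e4
  rw [e3] at e2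
  change _ = Nat.card L * _ at e1
  rw [← e4, e1, e2, cL] at hb
  have : 0 < Nat.card W := Nat.card_pos
  simp at hb
  omega

open Equiv Equiv.Perm in
theorem no_s6 (hr : SectionalPRankLE 2 4 Y) {π : Y →* Perm (Fin 6)} (hs : Function.Surjective π)
    (h2 : IsPGroup 2 π.ker) (hf : Faith π) : False := by
  let ε : Perm (Fin 6) := swap 0 1 * swap 1 3 * swap 3 2 * swap 2 4
  obtain ⟨e, he, he5⟩ := exists_lift_pow hs h2 (p := 5) (by norm_num) (by norm_num) (s := ε)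
    (by decide)
  obtain ⟨cR, -⟩ := fpf5 (Sq_le _) h2 (bound hr (Sq_le _) fun x hx => sq_mem_Sq hx)
    (he5 ▸ one_mem _) (by rw [normalizer_eq_top]; trivial) (by
      by_contra! H
      exact absurd (he.symm.trans (hf e H)) (by decide))
  obtain ⟨c, ρ, co⟩ := exists_co (n := 4) (Sq_le _) (fun x hx => sq_mem_Sq hx) cR
  let ρ' : Y →* E4 := (Matrix.toLinAlgEquiv' (R := ZMod 2) (n := Fin 4)).toRingEquiv.toMonoidHom.comp ρ
  have hk : ∀ g, ρ' g = 1 ↔ g ∈ π.ker := fun g => by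
    rw [show ρ' g = 1 ↔ ρ g = 1 from (Matrix.toLinAlgEquiv' (R := ZMod 2) (n := Fin 4)).map_eq_one_iff]
    exact ⟨fun e => hf g (co.rho_eq_one_iff.1 e), co.rho_of_mem⟩
  let σ : Perm (Fin 6) →* E4 := (Units.coeHom E4).comp
    (π.liftOfRightInverse _ (Function.rightInverse_surjInv hs)
      ⟨ρ'.toHomUnits, fun g hg => Units.ext ((hk g).2 hg)⟩)
  have hσ : ∀ g, σ (π g) = ρ' g := fun g => by
    simp [σ, MonoidHom.liftOfRightInverse_comp_apply]
  have hi : Function.Injective σ := (injective_iff_map_eq_one σ).2 fun s h => by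
    obtain ⟨g, rfl⟩ := hs s
    exact (hk g).1 (hσ g ▸ h)
  have cc : ∀ a g, Nat.card (Fx (σ (g * a * g⁻¹))) = Nat.card (Fx (σ a)) := by
    have key : ∀ a g, Nat.card (Fx (σ a)) ≤ Nat.card (Fx (σ (g * a * g⁻¹))) := fun a g =>
      Nat.card_le_card_of_injective (fun v => ⟨σ g v, mem_Fx.2 (by
        rw [← Module.End.mul_apply, ← map_mul, inv_mul_cancel_right, map_mul, Module.End.mul_apply,
          mem_Fx.1 v.2])⟩) fun v w e => Subtype.ext (by
        have := congrArg (σ g⁻¹) (congrArg Subtype.val e)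
        simpa [← Module.End.mul_apply, ← map_mul] using this)
    exact fun a g => le_antisymm (by simpa [mul_assoc] using key (g * a * g⁻¹) g⁻¹) (key a g)
  let a : Perm (Fin 6) := swap 0 1 * swap 1 2
  let b : Perm (Fin 6) := swap 3 4 * swap 4 5
  have po : ∀ {a : Perm (Fin 6)}, a ^ 3 = 1 → σ a ^ 3 = 1 := fun h => by rw [← map_pow, h, map_one]
  have ne : ∀ {s}, s ≠ 1 → σ s ≠ 1 := fun h e => h (hi (e.trans (map_one σ).symm))
  have hb : Nat.card (Fx (σ b)) = Nat.card (Fx (σ a)) := by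
    rw [← cc a (swap 0 3 * swap 1 4 * swap 2 5), show (swap 0 3 * swap 1 4 * swap 2 5) * a *
      (swap 0 3 * swap 1 4 * swap 2 5)⁻¹ = b by decide +kernel]
  have hab : Nat.card (Fx (σ a * σ b * σ b)) = Nat.card (Fx (σ a * σ b)) := by
    rw [← map_mul, ← map_mul, ← cc (a * b) (swap 4 5),
      show swap 4 5 * (a * b) * (swap 4 5)⁻¹ = a * b * b by decide +kernel]
  have D := fun k hk c1 c3 => dich (A := σ a) (B := σ b) (k := k) (po (by decide +kernel)) (po (by decide +kernel))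
    (by rw [← map_mul, ← map_mul, show a * b = b * a by decide +kernel]) (ne (by decide +kernel)) hk c1 (hb.trans c1) c3
    (hab.trans c3)
  have nc := fun t₁ t₂ t₃ r δ ε => no_cfg (t₁ := t₁) (t₂ := t₂) (t₃ := t₃) (r := r) (δ := δ) (ε := ε)
    hr hs (Sq_le _) co σ (fun g v => by rw [hσ]; rfl) hi
  rcases Fx3 (D := σ a) (po (by decide +kernel)) (ne (by decide +kernel)) with h1 | h1 <;>
    rcases Fx3 (D := σ (a * b)) (po (by decide +kernel)) (ne (by decide +kernel)) with h3 | h3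
  · exact D 1 (Or.inl rfl) h1 (map_mul σ a b ▸ h3)
  · exact nc (swap 0 1 * swap 2 3 * swap 4 5) (swap 1 2 * swap 0 3 * swap 4 5)
      (swap 2 0 * swap 1 3 * swap 4 5) a
      ((swap 1 2 * swap 2 4 * swap 4 3) * (a * b) * (swap 1 2 * swap 2 4 * swap 4 3)⁻¹)
      (swap 0 1 * swap 1 4 * swap 4 3 * swap 3 2) (by unfold Cfg; decide +kernel) h1 (by rw [cc, h3])
  · exact nc (swap 0 3) (swap 1 4) (swap 2 5) (a * b) (swap 0 4 * a * (swap 0 4)⁻¹)
      (swap 0 1 * swap 1 2 * swap 2 4 * swap 4 3) (by unfold Cfg; decide +kernel) h3 (by rw [cc, h1])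
  · exact D 4 (Or.inr rfl) h1 (map_mul σ a b ▸ h3)

end Cfsg.Agent.GHE
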